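/- Tensor decompositions `V ≅ E ⊗ W`: contractions, the subspaces `E ⊗ J`, the group
`GL(E) ⊗ GL(W)` and rank estimates for its elements. -/
import Cfsg.Agent.H62.Tv

set_option autoImplicit false

namespace H56

open Module TensorProduct

variable {F E W V : Type*} [Field F] [AddCommGroup E] [Module F E] [AddCommGroup W] [Module F W]
  [AddCommGroup V] [Module F V]

/-- The space of vectors moved by `g`. -/
def mv (g : V ≃ₗ[F] V) : Submodule F V := LinearMap.range ((g : V →ₗ[F] V) - LinearMap.id)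

theorem mem_mv {g : V ≃ₗ[F] V} {x : V} : x ∈ mv g ↔ ∃ y, g y - y = x := Iff.rfl

theorem sub_mem_mv (g : V ≃ₗ[F] V) (y : V) : g y - y ∈ mv g := ⟨y, rfl⟩

theorem mv_le {g : V ≃ₗ[F] V} {L : Submodule F V} : mv g ≤ L ↔ ∀ y, g y - y ∈ L :=
  ⟨fun h y => h (sub_mem_mv g y), fun h _ ⟨y, e⟩ => e ▸ h y⟩

theorem mv_conj (g h : V ≃ₗ[F] V) : mv (g * h * g⁻¹) = (mv h).map (g : V →ₗ[F] V) := by
  ext x
  constructor
  · rintro ⟨y, rfl⟩
    exact ⟨_, sub_mem_mv h (g.symm y), by simp⟩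
  · rintro ⟨_, ⟨y, rfl⟩, rfl⟩
    exact ⟨g y, by simp⟩

theorem finrank_mv_conj (g h : V ≃ₗ[F] V) : finrank F (mv (g * h * g⁻¹)) = finrank F (mv h) := by
  rw [mv_conj]; exact LinearEquiv.finrank_map_eq g _

variable (F E W V) in
/-- A tensor decomposition of `V`. -/
structure Ten where
  /-- the identification -/
  eqv : E ⊗[F] W ≃ₗ[F] V

namespace Ten

variable (T : Ten F E W V)

/-- Pure tensors. -/
def t : E →ₗ[F] W →ₗ[F] V := (TensorProduct.mk F E W).compr₂ T.eqv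

theorem t_def (e : E) (w : W) : T.t e w = T.eqv (e ⊗ₜ w) := rfl

/-- The decomposition with the factors exchanged. -/
def swap : Ten F W E V := ⟨(TensorProduct.comm F W E).trans T.eqv⟩

@[simp] theorem swap_t (e : E) (w : W) : T.swap.t w e = T.t e w := rfl

@[elab_as_elim]
theorem induction {p : V → Prop} (y : V) (h0 : p 0) (h1 : ∀ e w, p (T.t e w))
    (h2 : ∀ x y, p x → p y → p (x + y)) : p y := by
  obtain ⟨y, rfl⟩ := T.eqv.surjective y
  induction y with
  | zero => simpa using h0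
  | tmul e w => exact h1 e w
  | add x y hx hy => rw [map_add]; exact h2 _ _ hx hy

theorem hom_ext {U : Type*} [AddCommGroup U] [Module F U] {f g : V →ₗ[F] U}
    (h : ∀ e w, f (T.t e w) = g (T.t e w)) : f = g :=
  LinearMap.ext fun y => T.induction y (by simp) h fun x y hx hy => by simp [hx, hy]

theorem equiv_ext {f g : V ≃ₗ[F] V} (h : ∀ e w, f (T.t e w) = g (T.t e w)) : f = g :=
  LinearEquiv.toLinearMap_injective (T.hom_ext h)

/-- The linear map attached to a bilinear map. -/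
def lift {U : Type*} [AddCommGroup U] [Module F U] (f : E →ₗ[F] W →ₗ[F] U) : V →ₗ[F] U :=
  TensorProduct.lift f ∘ₗ T.eqv.symm

@[simp] theorem lift_t {U : Type*} [AddCommGroup U] [Module F U] (f : E →ₗ[F] W →ₗ[F] U) (e : E)
    (w : W) : T.lift f (T.t e w) = f e w := by simp [lift, t_def]

/-- Contraction of the first factor. -/
def cL (l : Dual F E) : V →ₗ[F] W := T.lift (l.smulRight LinearMap.id)

@[simp] theorem cL_t (l : Dual F E) (e : E) (w : W) : T.cL l (T.t e w) = l e • w := by simp [cL]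

/-- Contraction of the second factor. -/
def cR (φ : Dual F W) : V →ₗ[F] E := T.swap.cL φ

@[simp] theorem cR_t (φ : Dual F W) (e : E) (w : W) : T.cR φ (T.t e w) = φ w • e :=
  T.swap.cL_t φ w e

@[simp] theorem swap_cL (φ : Dual F W) : T.swap.cL φ = T.cR φ := rfl

@[simp] theorem swap_cR (l : Dual F E) : T.swap.cR l = T.cL l := T.hom_ext fun e w => by
  rw [← swap_t, cR_t, swap_t, cL_t]

theorem apply_cL (l : Dual F E) (φ : Dual F W) (y : V) : φ (T.cL l y) = l (T.cR φ y) :=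
  T.induction y (by simp) (by simp [mul_comm]) fun x y hx hy => by simp [hx, hy]

theorem cR_add (φ ψ : Dual F W) (y : V) : T.cR (φ + ψ) y = T.cR φ y + T.cR ψ y :=
  T.induction y (by simp) (by simp [add_smul]) fun x y hx hy => by simp [hx, hy]; abel

theorem cR_smul (c : F) (φ : Dual F W) (y : V) : T.cR (c • φ) y = c • T.cR φ y :=
  T.induction y (by simp) (by simp [smul_smul]) fun x y hx hy => by simp [hx, hy]

/-- The contractions of a fixed vector. -/
def cRat (y : V) : Dual F W →ₗ[F] E where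
  toFun φ := T.cR φ y
  map_add' φ ψ := T.cR_add φ ψ y
  map_smul' c φ := T.cR_smul c φ y

@[simp] theorem cRat_apply (y : V) (φ : Dual F W) : T.cRat y φ = T.cR φ y := rfl

/-- The tensor product of two endomorphisms. -/
def tl (α : E →ₗ[F] E) (β : W →ₗ[F] W) : V →ₗ[F] V := T.lift (T.t.compl₁₂ α β)

@[simp] theorem tl_t (α : E →ₗ[F] E) (β : W →ₗ[F] W) (e : E) (w : W) :
    T.tl α β (T.t e w) = T.t (α e) (β w) := by simp [tl]

/-- The tensor product of two automorphisms. -/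
def tm (A : E ≃ₗ[F] E) (B : W ≃ₗ[F] W) : V ≃ₗ[F] V :=
  LinearEquiv.ofLinearMap (T.tl A B) (T.tl A.symm B.symm) (T.hom_ext fun e w => by simp)
    (T.hom_ext fun e w => by simp)

@[simp] theorem tm_t (A : E ≃ₗ[F] E) (B : W ≃ₗ[F] W) (e : E) (w : W) :
    T.tm A B (T.t e w) = T.t (A e) (B w) := T.tl_t _ _ e w

theorem tm_apply (A : E ≃ₗ[F] E) (B : W ≃ₗ[F] W) (y : V) : T.tm A B y = T.tl A B y := rfl

theorem tm_mul (A A' : E ≃ₗ[F] E) (B B' : W ≃ₗ[F] W) :
    T.tm A B * T.tm A' B' = T.tm (A * A') (B * B') := T.equiv_ext fun e w => by simp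

@[simp] theorem tm_one : T.tm 1 1 = 1 := T.equiv_ext fun e w => by simp

theorem tm_inv (A : E ≃ₗ[F] E) (B : W ≃ₗ[F] W) : (T.tm A B)⁻¹ = T.tm A⁻¹ B⁻¹ :=
  inv_eq_of_mul_eq_one_right (by simp [tm_mul])

theorem swap_tm (A : E ≃ₗ[F] E) (B : W ≃ₗ[F] W) : T.swap.tm B A = T.tm A B :=
  T.equiv_ext fun e w => by rw [← swap_t, tm_t, swap_t, swap_t, tm_t]

/-- The homomorphism `GL(W) → GL(V)`, `B ↦ 1 ⊗ B`. -/
def rt : (W ≃ₗ[F] W) →* (V ≃ₗ[F] V) := MonoidHom.mk' (T.tm 1) fun a b => by simp [tm_mul]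

@[simp] theorem rt_t (B : W ≃ₗ[F] W) (e : E) (w : W) : T.rt B (T.t e w) = T.t e (B w) :=
  T.tm_t 1 B e w

theorem cL_rt (l : Dual F E) (B : W ≃ₗ[F] W) (y : V) : T.cL l (T.rt B y) = B (T.cL l y) :=
  T.induction y (by simp) (by simp) fun x y hx hy => by simp [hx, hy]

theorem cR_tm (φ : Dual F W) (A : E ≃ₗ[F] E) (B : W ≃ₗ[F] W) (y : V) :
    T.cR φ (T.tm A B y) = A (T.cR (φ ∘ₗ (B : W →ₗ[F] W)) y) :=
  T.induction y (by simp) (by simp) fun x y hx hy => by simp [hx, hy]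

/-- The stabiliser of the tensor decomposition. -/
def grp : Subgroup (V ≃ₗ[F] V) where
  carrier := {g | ∃ A B, g = T.tm A B}
  one_mem' := ⟨1, 1, T.tm_one.symm⟩
  mul_mem' := by rintro _ _ ⟨A, B, rfl⟩ ⟨A', B', rfl⟩; exact ⟨_, _, T.tm_mul ..⟩
  inv_mem' := by rintro _ ⟨A, B, rfl⟩; exact ⟨_, _, T.tm_inv ..⟩

theorem mem_grp {g : V ≃ₗ[F] V} : g ∈ T.grp ↔ ∃ A B, g = T.tm A B := Iff.rfl

theorem tm_mem (A : E ≃ₗ[F] E) (B : W ≃ₗ[F] W) : T.tm A B ∈ T.grp := ⟨A, B, rfl⟩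

theorem rt_mem (B : W ≃ₗ[F] W) : T.rt B ∈ T.grp := ⟨1, B, rfl⟩

@[simp] theorem swap_grp : T.swap.grp = T.grp := by
  ext g
  exact ⟨fun ⟨A, B, h⟩ => ⟨B, A, h.trans (T.swap_tm B A)⟩,
    fun ⟨A, B, h⟩ => ⟨B, A, h.trans (T.swap_tm A B).symm⟩⟩

theorem t_eq_zero {e : E} {w : W} : T.t e w = 0 ↔ e = 0 ∨ w = 0 := by
  refine ⟨fun h => or_iff_not_imp_left.2 fun he => ?_, by rintro (rfl | rfl) <;> simp⟩
  obtain ⟨l, hl⟩ := H62.exists_dual_of_ne_zero (F := F) he
  simpa [hl] using congrArg (T.cL l) h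

theorem t_left_inj {w : W} (hw : w ≠ 0) {e e' : E} : T.t e w = T.t e' w ↔ e = e' := by
  rw [← sub_eq_zero, ← LinearMap.sub_apply, ← map_sub, t_eq_zero, sub_eq_zero]; simp [hw]

theorem t_right_inj {e : E} (he : e ≠ 0) {w w' : W} : T.t e w = T.t e w' ↔ w = w' :=
  T.swap.t_left_inj he

/-- The subspace `E ⊗ J`. -/
def LS (J : Submodule F W) : Submodule F V := ⨅ l, J.comap (T.cL l)

theorem mem_LS {J : Submodule F W} {y : V} : y ∈ T.LS J ↔ ∀ l, T.cL l y ∈ J := by simp [LS]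

theorem t_mem_LS {J : Submodule F W} (e : E) {w : W} (hw : w ∈ J) : T.t e w ∈ T.LS J :=
  T.mem_LS.2 fun l => by simpa using J.smul_mem _ hw

theorem t_mem_LS_iff {J : Submodule F W} {e : E} (he : e ≠ 0) {w : W} :
    T.t e w ∈ T.LS J ↔ w ∈ J := by
  refine ⟨fun h => ?_, T.t_mem_LS e⟩
  obtain ⟨l, hl⟩ := H62.exists_dual_of_ne_zero (F := F) he
  simpa [hl] using T.mem_LS.1 h l

theorem LS_mono {J J' : Submodule F W} (h : J ≤ J') : T.LS J ≤ T.LS J' :=
  fun _ hy => T.mem_LS.2 fun l => h (T.mem_LS.1 hy l)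

theorem LS_inf (J J' : Submodule F W) : T.LS (J ⊓ J') = T.LS J ⊓ T.LS J' := by
  ext y; simp [mem_LS, forall_and]

@[simp] theorem LS_top : T.LS ⊤ = ⊤ := by ext y; simp [mem_LS]

theorem rt_mem_LS {B : W ≃ₗ[F] W} {J : Submodule F W} {y : V} :
    T.rt B y ∈ T.LS J ↔ y ∈ T.LS (J.comap (B : W →ₗ[F] W)) := by
  simp [mem_LS, cL_rt]

theorem mem_LS_ker {φ : Dual F W} {y : V} : y ∈ T.LS (LinearMap.ker φ) ↔ T.cR φ y = 0 := by
  simp only [mem_LS, LinearMap.mem_ker, apply_cL]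
  exact Module.forall_dual_apply_eq_zero_iff F _

theorem mem_LS_of_cR {J : Submodule F W} {y : V}
    (h : ∀ φ : Dual F W, (∀ w ∈ J, φ w = 0) → T.cR φ y = 0) : y ∈ T.LS J :=
  T.mem_LS.2 fun l => by
    by_contra hc
    obtain ⟨φ, h1, h2⟩ := H62.exists_dual_eq_one hc
    simp [apply_cL, h φ h2] at h1

theorem eq_sum {ι : Type*} [Fintype ι] (b : Basis ι F E) (y : V) :
    y = ∑ i, T.t (b i) (T.cL (b.coord i) y) := by
  refine T.induction y (by simp) (fun e w => ?_) fun x y hx hy => ?_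
  · conv_lhs => rw [← b.sum_repr e, map_sum, LinearMap.sum_apply]
    simp
  · simp only [map_add, Finset.sum_add_distrib, ← hx, ← hy]

variable [FiniteDimensional F E]

theorem LS_induction {J : Submodule F W} {p : V → Prop} {y : V} (hy : y ∈ T.LS J) (h0 : p 0)
    (h1 : ∀ e, ∀ w ∈ J, p (T.t e w)) (h2 : ∀ x y, p x → p y → p (x + y)) : p y := by
  rw [T.eq_sum (finBasis F E) y]
  exact Finset.sum_induction _ p h2 h0 fun i _ => h1 _ _ (T.mem_LS.1 hy _)

theorem LS_le {J : Submodule F W} {L : Submodule F V} :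
    T.LS J ≤ L ↔ ∀ e, ∀ w ∈ J, T.t e w ∈ L :=
  ⟨fun h e _ hw => h (T.t_mem_LS e hw),
    fun h _ hy => T.LS_induction hy L.zero_mem h fun _ _ => L.add_mem⟩

theorem eqOn_LS {U : Type*} [AddCommGroup U] [Module F U] {f g : V →ₗ[F] U} {J : Submodule F W}
    (h : ∀ e, ∀ w ∈ J, f (T.t e w) = g (T.t e w)) {y : V} (hy : y ∈ T.LS J) : f y = g y :=
  (T.LS_le (L := LinearMap.eqLocus f g)).2 h hy

@[simp] theorem LS_bot : T.LS ⊥ = ⊥ := le_bot_iff.1 (T.LS_le.2 (by simp))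

theorem LS_sup (J J' : Submodule F W) : T.LS (J ⊔ J') = T.LS J ⊔ T.LS J' := by
  refine le_antisymm (T.LS_le.2 fun e w hw => ?_)
    (sup_le (T.LS_mono le_sup_left) (T.LS_mono le_sup_right))
  obtain ⟨a, ha, b, hb, rfl⟩ := Submodule.mem_sup.1 hw
  rw [map_add]
  exact Submodule.add_mem_sup (T.t_mem_LS e ha) (T.t_mem_LS e hb)

theorem mem_LS_span {w : W} {y : V} : y ∈ T.LS (F ∙ w) ↔ ∃ e, y = T.t e w := by
  refine ⟨fun h => T.LS_induction (p := fun y => ∃ e, y = T.t e w) h ⟨0, by simp⟩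
    (fun e x hx => ?_) ?_,
    fun ⟨e, h⟩ => h ▸ T.t_mem_LS e (Submodule.mem_span_singleton_self w)⟩
  · obtain ⟨c, rfl⟩ := Submodule.mem_span_singleton.1 hx
    exact ⟨c • e, by simp⟩
  · rintro _ _ ⟨e, rfl⟩ ⟨e', rfl⟩
    exact ⟨e + e', by simp⟩

theorem finrank_LS (J : Submodule F W) : finrank F (T.LS J) = finrank F E * finrank F J := by
  have h : T.LS J = LinearMap.range (T.eqv.toLinearMap ∘ₗ J.subtype.lTensor E) := by
    refine le_antisymm (T.LS_le.2 fun e w hw => ⟨e ⊗ₜ ⟨w, hw⟩, rfl⟩) ?_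
    rintro _ ⟨y, rfl⟩
    induction y with
    | zero => simp
    | tmul e w => exact T.t_mem_LS e w.2
    | add x y hx hy => rw [map_add]; exact add_mem hx hy
  rw [h, LinearMap.finrank_range_of_inj, Module.finrank_tensorProduct]
  exact T.eqv.injective.comp
    (Module.Flat.lTensor_preserves_injective_linearMap _ J.subtype_injective)

theorem finrank_LS_span {w : W} (hw : w ≠ 0) : finrank F (T.LS (F ∙ w)) = finrank F E := by
  rw [finrank_LS, finrank_span_singleton hw, mul_one]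

theorem map_tm_LS (A : E ≃ₗ[F] E) (B : W ≃ₗ[F] W) (J : Submodule F W) :
    (T.LS J).map (T.tm A B : V →ₗ[F] V) = T.LS (J.map (B : W →ₗ[F] W)) := by
  refine le_antisymm (Submodule.map_le_iff_le_comap.2 (T.LS_le.2 fun e w hw => ?_))
    (T.LS_le.2 ?_)
  · rw [Submodule.mem_comap, LinearEquiv.coe_coe, tm_t]
    exact T.t_mem_LS (A e) (Submodule.mem_map_of_mem hw)
  · rintro e _ ⟨w, hw, rfl⟩
    exact ⟨_, T.t_mem_LS (A.symm e) hw, by simp⟩

theorem mv_rt (B : W ≃ₗ[F] W) : mv (T.rt B) = T.LS (mv B) := by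
  refine le_antisymm (mv_le.2 fun y => T.mem_LS.2 fun l => ?_) (T.LS_le.2 ?_)
  · rw [map_sub, cL_rt]; exact sub_mem_mv _ _
  · rintro e _ ⟨w, rfl⟩
    exact ⟨T.t e w, by simp⟩

omit [FiniteDimensional F E] in
/-- A tensor product whose first factor is scalar. -/
theorem exists_eq_rt {A : E ≃ₗ[F] E} (B : W ≃ₗ[F] W) (h : ∀ e, A e ∈ F ∙ e) :
    ∃ B', T.tm A B = T.rt B' := by
  obtain ⟨c, hc⟩ := LinearMap.exists_eq_smul_id_of_forall_notLinearIndependent
    (f := (A : E →ₗ[F] E)) fun e he => by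
      obtain ⟨c, hc⟩ := Submodule.mem_span_singleton.1 (h e)
      exact (LinearIndependent.pair_iff' (he.ne_zero 0)).1 he c hc
  replace hc : ∀ e, A e = c • e := fun e => LinearMap.congr_fun hc e
  by_cases h0 : c = 0
  · exact ⟨B, T.equiv_ext fun e w => by
      have : e = 0 := A.injective (by simp [hc, h0])
      simp [this]⟩
  · exact ⟨(LinearEquiv.smulOfNeZero F W c h0) * B, T.equiv_ext fun e w => by simp [hc]⟩

omit [FiniteDimensional F E] in
/-- A tensor product that moves `E ⊗ w` only modulo `E ⊗ J` has a scalar first factor. -/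
theorem exists_eq_rt_of_sub_mem {g : V ≃ₗ[F] V} (hg : g ∈ T.grp) {J : Submodule F W} {w : W}
    (hw : w ∉ J) (h : ∀ e, g (T.t e w) - T.t e w ∈ T.LS J) : ∃ B, g = T.rt B := by
  obtain ⟨A, B, rfl⟩ := hg
  refine T.exists_eq_rt B fun e => ?_
  by_contra hc
  by_cases he : e = 0
  · simp [he] at hc
  obtain ⟨l, h1, h2⟩ := H62.exists_dual_pair (H62.notMem_span_symm he hc)
  exact hw (by simpa [h1, h2] using T.mem_LS.1 (h e) l)

omit [FiniteDimensional F E] in
/-- **Rank lemma.** An element of the tensor group moving a space of dimension less than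
`dim W` has a scalar first factor. -/
theorem exists_eq_rt_of_finrank [FiniteDimensional F V] {g : V ≃ₗ[F] V} (hg : g ∈ T.grp)
    (h : finrank F (mv g) < finrank F W) : ∃ B, g = T.rt B := by
  obtain ⟨A, B, rfl⟩ := hg
  refine T.exists_eq_rt B fun e => ?_
  by_contra hc
  have he : e ≠ 0 := by rintro rfl; simp at hc
  obtain ⟨l, h1, h2⟩ := H62.exists_dual_pair (H62.notMem_span_symm he hc)
  let f : W →ₗ[F] mv (T.tm A B) :=
    (((T.tm A B : V →ₗ[F] V) - LinearMap.id) ∘ₗ T.t e).codRestrict _ fun w => ⟨_, rfl⟩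
  refine absurd (LinearMap.finrank_le_finrank_of_injective (f := f) ?_) (by omega)
  refine (injective_iff_map_eq_zero f).2 fun w hw => ?_
  have : T.tm A B (T.t e w) - T.t e w = 0 := congrArg Subtype.val hw
  simpa [h1, h2] using congrArg (T.cL l) this

end Ten

end H56
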