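/- Reduction tools for overgroup problems in linear groups: elements with maximal overlap
`L ∩ g⁻¹ L`, and a Frobenius-Burnside argument for quadratic subgroups. -/
import Cfsg.Agent.H56.Ten

set_option autoImplicit false

namespace H56

open Module

variable {F V : Type*} [Field F] [AddCommGroup V] [Module F V]

/-- `h ∈ M` is conjugated into `H` only by elements of `H`. -/
def Rigid (M H : Subgroup (V ≃ₗ[F] V)) (h : V ≃ₗ[F] V) : Prop :=
  h ∈ M ∧ ∀ g ∈ M, g * h * g⁻¹ ∈ H → g ∈ H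

/-- `g ∈ M \ H` has maximal overlap `L ∩ g⁻¹ L`. -/
structure Crit (M H : Subgroup (V ≃ₗ[F] V)) (L : Submodule F V) (g : V ≃ₗ[F] V) : Prop where
  mem : g ∈ M
  notMem : g ∉ H
  max : ∀ g' ∈ M, g' ∉ H → finrank F ↥(L ⊓ L.comap (g' : V →ₗ[F] V)) ≤
    finrank F ↥(L ⊓ L.comap (g : V →ₗ[F] V))

theorem finrank_comap_equiv (g : V ≃ₗ[F] V) (L : Submodule F V) :
    finrank F (L.comap (g : V →ₗ[F] V)) = finrank F L := by
  rw [Submodule.comap_equiv_eq_map_symm]; exact LinearEquiv.finrank_map_eq _ _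

variable [FiniteDimensional F V] {M H : Subgroup (V ≃ₗ[F] V)} {L : Submodule F V} {g : V ≃ₗ[F] V}

theorem map_eq_of_le (h : ∀ v ∈ L, g v ∈ L) : L.map (g : V →ₗ[F] V) = L :=
  Submodule.eq_of_le_of_finrank_eq (Submodule.map_le_iff_le_comap.2 h)
    (LinearEquiv.finrank_map_eq _ _)

theorem inv_mem_of_le (h : ∀ v ∈ L, g v ∈ L) : ∀ v ∈ L, g⁻¹ v ∈ L := fun v hv => by
  obtain ⟨w, hw, rfl⟩ := (map_eq_of_le h).ge hv
  simpa using hw

theorem exists_crit (L : Submodule F V) (h : ¬ M ≤ H) : ∃ g, Crit M H L g := by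
  obtain ⟨g, h1, h2⟩ := SetLike.not_le_iff_exists.1 h
  obtain ⟨k, hk, h⟩ := (InvImage.wf (fun k : V ≃ₗ[F] V =>
    finrank F V - finrank F ↥(L ⊓ L.comap (k : V →ₗ[F] V))) Nat.lt_wfRel.wf).has_min
    {k | k ∈ M ∧ k ∉ H} ⟨g, h1, h2⟩
  refine ⟨k, hk.1, hk.2, fun g' h3 h4 => ?_⟩
  have h5 : ¬ _ < _ := h g' ⟨h3, h4⟩
  have h6 := Submodule.finrank_le (L ⊓ L.comap (g' : V →ₗ[F] V))
  simp only at h5
  omega

namespace Crit

variable (c : Crit M H L g)
include c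

theorem le_of_notMem {h : V ≃ₗ[F] V} (hh : h ∈ M) (hh' : g * h * g⁻¹ ∉ H) {X : Submodule F V}
    (h1 : ∀ v ∈ X, g v ∈ L) (h2 : ∀ v ∈ X, g (h v) ∈ L) :
    finrank F X ≤ finrank F ↥(L ⊓ L.comap (g : V →ₗ[F] V)) := by
  refine le_trans ?_ (c.max _ (mul_mem (mul_mem c.mem hh) (inv_mem c.mem)) hh')
  rw [← LinearEquiv.finrank_map_eq g X]
  refine Submodule.finrank_mono ?_
  rintro _ ⟨v, hv, rfl⟩
  exact ⟨h1 v hv, by simpa using h2 v hv⟩

theorem le {h : V ≃ₗ[F] V} (hh : Rigid M H h) {X : Submodule F V} (h1 : ∀ v ∈ X, g v ∈ L)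
    (h2 : ∀ v ∈ X, g (h v) ∈ L) : finrank F X ≤ finrank F ↥(L ⊓ L.comap (g : V →ₗ[F] V)) :=
  c.le_of_notMem hh.1 (fun e => c.notMem (hh.2 g c.mem e)) h1 h2

theorem mem_of_notMem {h : V ≃ₗ[F] V} (hh : h ∈ M) (hh' : g * h * g⁻¹ ∉ H)
    (h1 : ∀ v ∈ L, g v ∈ L → g (h v) ∈ L) {y : V} (h2 : g y ∈ L) (h3 : g (h y) ∈ L) : y ∈ L := by
  by_contra hy
  have := c.le_of_notMem hh hh' (X := (L ⊓ L.comap (g : V →ₗ[F] V)) ⊔ F ∙ y) (fun v hv =>
    (sup_le (c := L.comap (g : V →ₗ[F] V)) inf_le_right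
      ((Submodule.span_singleton_le_iff_mem _ _).2 h2)) hv) fun v hv =>
    (sup_le (c := L.comap ((g * h : V ≃ₗ[F] V) : V →ₗ[F] V)) (fun v hv => h1 v hv.1 hv.2)
      ((Submodule.span_singleton_le_iff_mem _ _).2 h3)) hv
  rw [Submodule.finrank_sup_span_singleton fun h => hy (Submodule.mem_inf.1 h).1] at this
  omega

theorem mem_of {h : V ≃ₗ[F] V} (hh : Rigid M H h) (h1 : ∀ v ∈ L, g v ∈ L → g (h v) ∈ L) {y : V}
    (h2 : g y ∈ L) (h3 : g (h y) ∈ L) : y ∈ L :=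
  c.mem_of_notMem hh.1 (fun e => c.notMem (hh.2 g c.mem e)) h1 h2 h3

theorem exists_notMem (h1 : ∀ g ∈ M, (∀ v ∈ L, g v ∈ L) → g ∈ H) : ∃ y, g y ∈ L ∧ y ∉ L := by
  by_contra hc
  push Not at hc
  have := Submodule.eq_of_le_of_finrank_eq (show L.comap (g : V →ₗ[F] V) ≤ L from hc)
    (finrank_comap_equiv g L)
  exact c.notMem (h1 g c.mem fun v hv => this.ge hv)

omit c in
theorem finrank_sup_add (L : Submodule F V) (g : V ≃ₗ[F] V) :
    finrank F ↥(L ⊔ L.comap (g : V →ₗ[F] V)) + finrank F ↥(L ⊓ L.comap (g : V →ₗ[F] V)) =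
      2 * finrank F L := by
  rw [Submodule.finrank_sup_add_finrank_inf_eq, finrank_comap_equiv, two_mul]

end Crit

omit [FiniteDimensional F V] in
theorem pow_apply_of_mv_le {y : V ≃ₗ[F] V} (h1 : mv y ≤ L) (h2 : ∀ v ∈ L, y v = v) (n : ℕ)
    (v : V) : (y ^ n) v = v + (n : F) • (y v - v) := by
  induction n with
  | zero => simp
  | succ n ih =>
    rw [pow_succ', LinearEquiv.mul_apply, ih, map_add, map_smul, h2 _ (h1 (sub_mem_mv y v))]
    push_cast; module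

omit [FiniteDimensional F V] in
theorem commute_of_mv_le {y z : V ≃ₗ[F] V} (h1 : mv y ≤ L) (h2 : ∀ v ∈ L, y v = v)
    (h3 : mv z ≤ L) (h4 : ∀ v ∈ L, z v = v) : y * z = z * y := by
  ext v
  have e1 := h2 _ (h3 (sub_mem_mv z v))
  have e2 := h4 _ (h1 (sub_mem_mv y v))
  rw [map_sub] at e1 e2
  simp only [LinearEquiv.mul_apply]
  linear_combination (norm := module) e1 - e2

/-- The elements with all moved vectors in `S`. -/
def movIn (S : Submodule F V) : Subgroup (V ≃ₗ[F] V) where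
  carrier := {g | mv g ≤ S}
  one_mem' := mv_le.2 (by simp)
  mul_mem' {a b} ha hb := mv_le.2 fun y => by
    simpa using add_mem (mv_le.1 ha (b y)) (mv_le.1 hb y)
  inv_mem' {a} ha := mv_le.2 fun y => by simpa using neg_mem (mv_le.1 ha (a⁻¹ y))

theorem finite_linearEquiv [Finite F] : Finite (V ≃ₗ[F] V) :=
  have : Finite V := Module.finite_of_finite F
  Finite.of_injective _ (DFunLike.coe_injective (F := V ≃ₗ[F] V))

theorem sum_conj_eq {G A : Type*} [Group G] [AddCommMonoid A] (K : Subgroup G) [K.Normal]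
    [Fintype K] {x : G} (h : ∀ k ∈ K, k * x * k⁻¹ = x → k = 1) (f : G → A) :
    ∑ n : K, f (n * x * (n : G)⁻¹) = ∑ n : K, f (n * x) := by
  let φ : K → K := fun n => ⟨n * (x * (n : G)⁻¹ * x⁻¹),
    mul_mem n.2 (‹K.Normal›.conj_mem _ (inv_mem n.2) _)⟩
  have hφ : Function.Injective φ := fun a b e => by
    have e1 : (a : G) * (x * (a : G)⁻¹ * x⁻¹) = b * (x * (b : G)⁻¹ * x⁻¹) := congrArg Subtype.val e
    have e2 := h ((b : G)⁻¹ * a) (mul_mem (inv_mem b.2) a.2) (by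
      calc _ = (b : G)⁻¹ * (a * (x * (a : G)⁻¹ * x⁻¹)) * x * b := by group
        _ = _ := by rw [e1]; group)
    exact Subtype.ext (inv_mul_eq_one.1 e2).symm
  rw [← (Finite.injective_iff_bijective.1 hφ).sum_comp fun n : K => f (n * x)]
  simp [φ, mul_assoc]

/-- **Frobenius-Burnside lemma.** If the stabiliser of `L` in `Y` consists of elements acting
trivially on `L` and `V / L`, and the identity is a linear combination of such elements with
moved space `L`, then `Y` stabilises `L`. -/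
theorem frob_burnside [Finite F] {Y : Subgroup (V ≃ₗ[F] V)}
    (hY : ∀ y ∈ Y, (∀ v ∈ L, y v ∈ L) → mv y ≤ L ∧ ∀ v ∈ L, y v = v) {ι : Type*} [Fintype ι]
    [Nonempty ι] (x : ι → V ≃ₗ[F] V) (hx : ∀ i, x i ∈ Y) (hxL : ∀ i, mv (x i) = L)
    (hxL' : ∀ i, ∀ v ∈ L, x i v = v) (c : ι → F) (hc : ∀ v, ∑ i, c i • x i v = v) :
    ∀ y ∈ Y, mv y ≤ L := by
  classical
  have := finite_linearEquiv (F := F) (V := V)
  have hp : Fact (ringChar F).Prime := ⟨CharP.char_is_prime F _⟩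
  let P : Subgroup Y :=
    { carrier := {y | mv y.1 ≤ L ∧ ∀ v ∈ L, y.1 v = v}
      one_mem' := ⟨(movIn L).one_mem, by simp⟩
      mul_mem' := fun ha hb => ⟨(movIn L).mul_mem ha.1 hb.1, fun v hv => by
        simp [ha.2 v hv, hb.2 v hv]⟩
      inv_mem' := fun {a} ha => ⟨(movIn L).inv_mem ha.1, fun v hv =>
        a.1.injective (by simp [ha.2 v hv])⟩ }
  have key : ∀ (i : ι) (y : Y), y * ⟨x i, hx i⟩ * y⁻¹ ∈ P → y ∈ P := fun i y h =>
    hY y y.2 fun v hv => h.1 (by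
      rw [Subgroup.coe_mul, Subgroup.coe_mul, Subgroup.coe_inv, mv_conj, hxL]
      exact Submodule.mem_map_of_mem hv)
  have hxP : ∀ i, (⟨x i, hx i⟩ : Y) ∈ P := fun i => ⟨(hxL i).le, hxL' i⟩
  have hN : Subgroup.normalizer (P : Set Y) ≤ P := fun y hy =>
    key (Classical.arbitrary ι) y ((Subgroup.mem_normalizer_iff.1 hy _).1 (hxP _))
  have hP : IsPGroup (ringChar F) P := fun y => ⟨1, Subtype.ext (Subtype.ext (by
    ext v
    simpa using pow_apply_of_mv_le y.2.1 y.2.2 (ringChar F) v))⟩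
  obtain ⟨S, hS⟩ := hP.exists_le_sylow
  have hSP : (S : Subgroup Y) = P := by
    refine le_antisymm ?_ hS
    by_contra hc
    have := S.isPGroup'.isNilpotent
    obtain ⟨g, h2, h3⟩ := SetLike.exists_of_lt (Group.normalizerCondition_of_isNilpotent (G := S)
      (P.subgroupOf S) (lt_top_iff_ne_top.2 fun e => hc (Subgroup.subgroupOf_eq_top.1 e)))
    rw [← Subgroup.subgroupOf_normalizer_eq hS] at h2
    exact h3 (hN h2)
  have hC : Subgroup.normalizer ((S : Subgroup Y) : Set Y) ≤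
      Subgroup.centralizer ((S : Subgroup Y) : Set Y) := by
    rw [hSP]
    exact fun y hy z hz => Subtype.ext (commute_of_mv_le hz.1 hz.2 (hN hy).1 (hN hy).2)
  have hK := MonoidHom.ker_transferSylow_isComplement' S hC
  set K := (MonoidHom.transferSylow S hC).ker
  have := Fintype.ofFinite K
  have hcard : (Fintype.card K : F) ≠ 0 := by
    rw [Ne, ringChar.spec, ← Nat.card_eq_fintype_card, ← hK.index_eq_card]
    exact S.not_dvd_index
  have h1 : ∀ i v, ∑ n : K, n.1.1 (x i (n.1.1⁻¹ v)) = ∑ n : K, n.1.1 (x i v) := fun i v =>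
    sum_conj_eq K (x := ⟨x i, hx i⟩) (fun k hk e => Subgroup.disjoint_def.1 hK.disjoint hk
      (hSP ▸ key i k (e.symm ▸ hxP i))) fun y => y.1 v
  have h2 : ∀ v, ∑ n : K, n.1.1 v = (Fintype.card K : F) • v := fun v => by
    calc ∑ n : K, n.1.1 v = ∑ n : K, n.1.1 (∑ i, c i • x i v) := by simp only [hc]
      _ = ∑ i, c i • ∑ n : K, n.1.1 (x i (n.1.1⁻¹ v)) := by
        simp only [h1, map_sum, map_smul, Finset.smul_sum]; rw [Finset.sum_comm]
      _ = ∑ n : K, n.1.1 (∑ i, c i • x i (n.1.1⁻¹ v)) := by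
        simp only [map_sum, map_smul, Finset.smul_sum]; rw [Finset.sum_comm]
      _ = _ := by simp [hc, Nat.cast_smul_eq_nsmul]
  have h3 : ∀ k : K, k = 1 := fun k => Subtype.ext (Subtype.ext (LinearEquiv.ext fun v => by
    have e := Equiv.sum_comp (Equiv.mulLeft k) fun n : K => n.1.1 v
    simp only [Equiv.coe_mulLeft, Subgroup.coe_mul, LinearEquiv.mul_apply, ← map_sum, h2,
      map_smul] at e
    exact smul_right_injective V hcard e))
  intro y hy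
  obtain ⟨⟨k, s⟩, e⟩ := hK.2 ⟨y, hy⟩
  have : (⟨y, hy⟩ : Y) ∈ P := by rw [← e, h3 k, ← hSP]; simp
  exact this.1

/-- The reduction theorem: rigid quadratic elements force `M ≤ H`. -/
theorem Crit.false_of_quad [Finite F] (c : Crit M H L g)
    (h1 : ∀ g ∈ M, (∀ v ∈ L, g v ∈ L) → g ∈ H) {ι : Type*} [Fintype ι] [Nonempty ι]
    (x : ι → V ≃ₗ[F] V) (hx : ∀ i, x i ∈ M) (hxL : ∀ i, mv (x i) = L)
    (hxL' : ∀ i, ∀ v ∈ L, x i v = v) (a : ι → F) (ha : ∀ v, ∑ i, a i • x i v = v)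
    (h2 : ∀ m ∈ M, m ∈ H → (∀ v ∈ L, m v ∈ L) → mv m ≤ L ⊔ L.comap (g : V →ₗ[F] V) →
      mv m ≤ L ∧ ∀ v ∈ L, m v = v) : False := by
  obtain ⟨i⟩ := ‹Nonempty ι›
  have e : mv (g⁻¹ * x i * g⁻¹⁻¹) = L.comap (g : V →ₗ[F] V) := by
    rw [mv_conj, hxL, Submodule.comap_equiv_eq_map_symm]; rfl
  have := frob_burnside (Y := M ⊓ movIn (L ⊔ L.comap (g : V →ₗ[F] V)))
    (fun y hy h => h2 y hy.1 (h1 y hy.1 h) h hy.2) x
    (fun i => ⟨hx i, (hxL i).le.trans le_sup_left⟩) hxL hxL' a ha (g⁻¹ * x i * g⁻¹⁻¹)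
    ⟨M.mul_mem (M.mul_mem (M.inv_mem c.mem) (hx i)) (M.inv_mem (M.inv_mem c.mem)),
      e.le.trans le_sup_right⟩
  obtain ⟨y, h3, h4⟩ := c.exists_notMem h1
  exact h4 (this (e.ge h3))

end H56
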