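/- The algebra of endomorphisms of `E` attached to an overgroup of a tensor product group. -/
import Cfsg.Agent.H56.MaxRed

set_option autoImplicit false

namespace H56

open Module

variable {F E W V : Type*} [Field F] [AddCommGroup E] [Module F E] [AddCommGroup W] [Module F W]
  [AddCommGroup V] [Module F V]

/-- The subalgebra `𝔄` is normalised by `A`. -/
def Nz (𝔄 : Subalgebra F (End F E)) (A : E ≃ₗ[F] E) : Prop := ∀ α ∈ 𝔄, A.conj α ∈ 𝔄

theorem nz_adjoin {S : Set (End F E)} {A : E ≃ₗ[F] E} (h : ∀ α ∈ S, A.conj α ∈ S) :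
    Nz (Algebra.adjoin F S) A := fun _ hα =>
  (Algebra.adjoin_le (S := (Algebra.adjoin F S).comap (A.conjAlgEquiv F).toAlgHom)
    fun α hα => Algebra.subset_adjoin (h α hα)) hα

/-- An endomorphism is conjugate to at most `dim E` of its shifts. -/
theorem card_le_of_shift [FiniteDimensional F E] [Nontrivial E] (α : End F E) (C : Finset F)
    (h : ∀ c ∈ C, ∃ A : E ≃ₗ[F] E, ∀ x, A (α (A.symm x)) = α x + c • x) :
    C.card ≤ finrank F E := by
  have h0 : 0 < (-α).charpoly.natDegree := by rw [LinearMap.charpoly_natDegree]; exact finrank_pos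
  have h1 := Polynomial.natDegree_sub_C (p := (-α).charpoly) (a := LinearMap.det α)
  rw [← LinearMap.charpoly_natDegree (-α), ← h1]
  refine Polynomial.card_le_degree_of_subset_roots fun c hc => ?_
  obtain ⟨A, hA⟩ := h c hc
  rw [Polynomial.mem_roots (by rintro e; rw [e] at h1; simp at h1; omega), Polynomial.IsRoot,
    Polynomial.eval_sub, LinearMap.eval_charpoly, Polynomial.eval_C, sub_eq_zero,
    ← LinearMap.det_conj α A]
  congr 1
  ext x
  simp [hA, add_comm]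

theorem smul_eq_zero_of_shift [FiniteDimensional F E] {α : End F E} {c : F} {A : E ≃ₗ[F] E}
    (h : ∀ x, A (α (A.symm x)) = α x + c • x) : (finrank F E : F) * c = 0 := by
  have h1 := LinearMap.trace_conj' α A
  rw [show A.conj α = α + c • 1 from LinearMap.ext h] at h1
  simpa [mul_comm] using h1

theorem finrank_le_of_shift [FiniteDimensional F E] {α : End F E} {c : F} (hc : c ≠ 0)
    {A : E ≃ₗ[F] E} (h : ∀ x, A (α (A.symm x)) = α x + c • x) :
    finrank F E ≤ 2 * finrank F (mv A) := by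
  have h1 : (⊤ : Submodule F E) ≤ mv A ⊔ (mv A).map α := fun x _ => by
    have e : x = c⁻¹ • ((A (α (A.symm x)) - α (A.symm x)) - α (A (A.symm x) - A.symm x)) := by
      rw [h]; simp [smul_smul, hc]
    rw [e]
    exact Submodule.smul_mem _ _ (sub_mem (Submodule.mem_sup_left (sub_mem_mv _ _))
      (Submodule.mem_sup_right (Submodule.mem_map_of_mem (sub_mem_mv _ _))))
  have h2 := Submodule.finrank_mono h1
  have h3 := Submodule.finrank_add_le_finrank_add_finrank (mv A) ((mv A).map α)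
  have h4 := Submodule.finrank_map_le α (mv A)
  rw [finrank_top] at h2
  omega

theorem exists_notMem_span_of_ne {α : End F E} (h : ∀ c : F, α ≠ c • 1) : ∃ u, α u ∉ F ∙ u := by
  by_contra hc
  push Not at hc
  obtain ⟨c, hc⟩ := LinearMap.exists_eq_smul_id_of_forall_notLinearIndependent (f := α)
    fun e he => by
      obtain ⟨c, hc⟩ := Submodule.mem_span_singleton.1 (hc e)
      exact (LinearIndependent.pair_iff' (he.ne_zero 0)).1 he c hc
  exact h c hc

theorem eq_top_of_rank_one [FiniteDimensional F E] {𝔄 : Subalgebra F (End F E)}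
    (h : ∀ (x : E) (l : Dual F E), l.smulRight x ∈ 𝔄) : 𝔄 = ⊤ := by
  refine eq_top_iff.2 fun α _ => ?_
  let b := finBasis F E
  have : α = ∑ i, (b.coord i).smulRight (α (b i)) := LinearMap.ext fun x => by
    conv_lhs => rw [← b.sum_repr x, map_sum]
    simp
  rw [this]
  exact sum_mem fun i _ => h _ _

namespace Ten

variable (T : Ten F E W V) (M : Subgroup (V ≃ₗ[F] V))

/-- The maps `Φ` such that an element of `M` acts on `E ⊗ W₁` as `y ↦ y + Φ y ⊗ w₀`. -/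
def QA {w₀ : W} {W₁ : Submodule F W} (h : w₀ ∈ W₁) : AddSubgroup (V →ₗ[F] E) where
  carrier := {Φ | (∀ e, Φ (T.t e w₀) = 0) ∧ ∃ m ∈ M, ∀ y ∈ T.LS W₁, m y = y + T.t (Φ y) w₀}
  zero_mem' := ⟨by simp, 1, M.one_mem, by simp⟩
  add_mem' := by
    rintro a b ⟨h1, m, hm, h2⟩ ⟨h3, m', hm', h4⟩
    refine ⟨by simp [h1, h3], m * m', M.mul_mem hm hm', fun y hy => ?_⟩
    rw [LinearEquiv.mul_apply, h4 y hy, map_add, h2 y hy, h2 _ (T.t_mem_LS _ h)]
    simp [h1, add_assoc]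
  neg_mem' := by
    rintro a ⟨h1, m, hm, h2⟩
    refine ⟨by simp [h1], m⁻¹, M.inv_mem hm, fun y hy => m.injective ?_⟩
    rw [map_add, h2 y hy, h2 _ (T.t_mem_LS _ h)]
    simp [h1]

variable {T M} {w₀ z : W} {W₁ W₂ : Submodule F W} {h : w₀ ∈ W₁} {Φ : V →ₗ[F] E}

theorem mem_QA : Φ ∈ T.QA M h ↔
    (∀ e, Φ (T.t e w₀) = 0) ∧ ∃ m ∈ M, ∀ y ∈ T.LS W₁, m y = y + T.t (Φ y) w₀ := Iff.rfl

theorem comp_mem_QA (hΦ : Φ ∈ T.QA M h) {k : V ≃ₗ[F] V} (hk : k ∈ M)
    (h1 : ∀ e, k (T.t e w₀) = T.t e w₀) (h2 : ∀ y ∈ T.LS W₁, k y ∈ T.LS W₁) :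
    Φ ∘ₗ (k : V →ₗ[F] V) ∈ T.QA M h := by
  obtain ⟨h3, m, hm, h4⟩ := hΦ
  refine ⟨by simp [h1, h3], k⁻¹ * m * k, M.mul_mem (M.mul_mem (M.inv_mem hk) hm) hk,
    fun y hy => k.injective ?_⟩
  simp [h4 _ (h2 y hy), h1]

theorem conj_mem_QA [FiniteDimensional F E] (hΦ : Φ ∈ T.QA M h) {A : E ≃ₗ[F] E}
    (hA : T.tm A 1 ∈ M) : (A : E →ₗ[F] E) ∘ₗ Φ ∘ₗ (T.tm A⁻¹ 1 : V →ₗ[F] V) ∈ T.QA M h := by
  obtain ⟨h3, m, hm, h4⟩ := hΦ
  refine ⟨by simp [h3], T.tm A 1 * m * (T.tm A 1)⁻¹,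
    M.mul_mem (M.mul_mem hA hm) (M.inv_mem hA), fun y hy => ?_⟩
  have h5 : T.tm A⁻¹ 1 y ∈ T.LS W₁ :=
    (T.LS_le (L := (T.LS W₁).comap (T.tm A⁻¹ 1 : V →ₗ[F] V))).2
      (fun e w hw => by simpa using T.t_mem_LS _ hw) hy
  have h6 : T.tm A 1 (T.tm A⁻¹ 1 y) = y := by rw [← LinearEquiv.mul_apply, tm_mul]; simp
  rw [tm_inv, inv_one, LinearEquiv.mul_apply, LinearEquiv.mul_apply, h4 _ h5, map_add, h6]
  simp

variable (T M h z) in
/-- The values at `z` of the maps in `QA`. -/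
def E0 : Set (End F E) := {α | ∃ Φ ∈ T.QA M h, ∀ e, Φ (T.t e z) = α e}

variable (T M h W₂) in
/-- The endomorphisms `β` such that `β ⊗ ψ` is induced on `E ⊗ W₂`. -/
def E1 (ψ : Dual F W) : Submodule F (End F E) where
  carrier := {β | ∀ c : F, ∃ Φ ∈ T.QA M h, ∀ e, ∀ w ∈ W₂, Φ (T.t e w) = (c * ψ w) • β e}
  zero_mem' c := ⟨0, zero_mem _, by simp⟩
  add_mem' ha hb c := by
    obtain ⟨Φ, h1, h2⟩ := ha c
    obtain ⟨Ψ, h3, h4⟩ := hb c
    exact ⟨Φ + Ψ, add_mem h1 h3, fun e w hw => by simp [h2 e w hw, h4 e w hw]⟩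
  smul_mem' a β hβ c := by
    obtain ⟨Φ, h1, h2⟩ := hβ (c * a)
    exact ⟨Φ, h1, fun e w hw => by simp [h2 e w hw, smul_smul, mul_right_comm]⟩

theorem nz_E0 [FiniteDimensional F E] {A : E ≃ₗ[F] E} (hA : T.tm A 1 ∈ M) :
    Nz (Algebra.adjoin F (T.E0 M z h)) A := nz_adjoin fun α ⟨Φ, h1, h2⟩ =>
  ⟨_, conj_mem_QA h1 hA, fun e => by simp [h2, LinearEquiv.conj_apply_apply]⟩

/-- The values at `z` generate an algebra of pure maps. -/
theorem adjoin_E0_le [FiniteDimensional F E] {ψ : Dual F W} (h0 : w₀ ∈ W₂) (h21 : W₂ ≤ W₁)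
    (hψ : ψ w₀ = 0)
    (hperp : ∀ m ∈ M, (∀ e, m (T.t e w₀) = T.t e w₀) → ∀ y ∈ T.LS W₁, m y ∈ T.LS W₁)
    {s : W ≃ₗ[F] W} (hs : T.rt s ∈ M) (hs1 : s w₀ = -z)
    (hs2 : ∀ w ∈ W₂, s.symm w ∈ W₂ ∧ ψ (s.symm w) = ψ w) (h1 : 1 ∈ T.E1 M W₂ h ψ) :
    ∀ α ∈ Algebra.adjoin F (T.E0 M z h), α ∈ T.E1 M W₂ h ψ := by
  have key : ∀ α ∈ T.E0 M z h, ∀ β ∈ T.E1 M W₂ h ψ, α * β ∈ T.E1 M W₂ h ψ := by
    rintro α ⟨Φ, h2, h3⟩ β hβ c
    obtain ⟨Ψ, ⟨-, m, hm, h4⟩, h5⟩ := hβ (-c)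
    have h6 : ∀ e, ∀ w ∈ W₂, (T.rt s * m * (T.rt s)⁻¹) (T.t e w) =
        T.t e w + (c * ψ w) • T.t (β e) z := fun e w hw => by
      rw [← map_inv, LinearEquiv.mul_apply, LinearEquiv.mul_apply, rt_t, LinearEquiv.coe_inv,
        h4 _ (T.t_mem_LS _ (h21 (hs2 w hw).1)), h5 _ _ (hs2 w hw).1, (hs2 w hw).2]
      simp [hs1]
    have h7 := M.mul_mem (M.mul_mem hs hm) (M.inv_mem hs)
    have h8 : ∀ e, (T.rt s * m * (T.rt s)⁻¹) (T.t e w₀) = T.t e w₀ := fun e => by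
      simp only [h6 e w₀ h0, hψ, mul_zero, zero_smul, add_zero]
    refine ⟨_, sub_mem (comp_mem_QA h2 h7 h8 (hperp _ h7 h8)) h2, fun e w hw => ?_⟩
    simp only [LinearMap.sub_apply, LinearMap.comp_apply, LinearEquiv.coe_coe, h6 e w hw]
    simp [h3]
  intro α hα
  have : ∀ β ∈ T.E1 M W₂ h ψ, α * β ∈ T.E1 M W₂ h ψ := by
    induction hα using Algebra.adjoin_induction with
    | mem x hx => exact key x hx
    | algebraMap r => exact fun β hβ => by simpa [Algebra.smul_def] using Submodule.smul_mem _ r hβ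
    | add x y _ _ hx hy => exact fun β hβ => by rw [add_mul]; exact add_mem (hx β hβ) (hy β hβ)
    | mul x y _ _ hx hy => exact fun β hβ => by rw [mul_assoc]; exact hx _ (hy β hβ)
  simpa using this 1 h1

/-- Recognition of tensor products modulo `E ⊗ w₀`. -/
theorem exists_tensor_mod [FiniteDimensional F E] [Nontrivial E] (T : Ten F E W V)
    {g : V ≃ₗ[F] V} {A : E ≃ₗ[F] E} (h0 : ∀ e, g (T.t e w₀) = T.t (A e) w₀)
    (h1 : ∀ φ' : Dual F W, φ' w₀ = 0 → ∃ φ : Dual F W, ∀ e, ∀ w ∈ W₁,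
      T.cR φ' (g (T.t e w)) = φ w • A e) :
    ∃ B : W →ₗ[F] W, B w₀ = w₀ ∧ ∀ e, ∀ w ∈ W₁, ∃ x, g (T.t e w) = T.t (A e) (B w) + T.t x w₀ := by
  obtain ⟨e₀, he⟩ := exists_ne (0 : E)
  obtain ⟨l, hl⟩ := H62.exists_dual_of_ne_zero (F := F) (A.map_ne_zero_iff.2 he)
  refine ⟨T.cL l ∘ₗ (g : V →ₗ[F] V) ∘ₗ T.t e₀, by simp [h0, hl], fun e w hw => ?_⟩
  simp only [← sub_eq_iff_eq_add', ← T.mem_LS_span]
  refine T.mem_LS_of_cR fun φ' hφ' => ?_
  obtain ⟨φ, hφ⟩ := h1 φ' (hφ' _ (Submodule.mem_span_singleton_self _))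
  simp [hφ _ w hw, apply_cL, hl]

/-- The action on `E ⊗ w₀` of an element stabilising it. -/
theorem exists_equiv_of_stab [FiniteDimensional F E] (T : Ten F E W V) {g : V ≃ₗ[F] V}
    (hw : w₀ ≠ 0) (h : ∀ v ∈ T.LS (F ∙ w₀), g v ∈ T.LS (F ∙ w₀)) :
    ∃ A : E ≃ₗ[F] E, ∀ e, g (T.t e w₀) = T.t (A e) w₀ := by
  obtain ⟨φ, hφ⟩ := H62.exists_dual_of_ne_zero (F := F) hw
  let f : E →ₗ[F] E := T.cR φ ∘ₗ (g : V →ₗ[F] V) ∘ₗ T.t.flip w₀
  have hf : ∀ e, g (T.t e w₀) = T.t (f e) w₀ := fun e => by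
    obtain ⟨x, hx⟩ := T.mem_LS_span.1 (h _ (T.mem_LS_span.2 ⟨e, rfl⟩))
    simp [f, hx, hφ]
  refine ⟨LinearEquiv.ofInjectiveEndo f ((injective_iff_map_eq_zero f).2 fun e he => ?_), hf⟩
  have := hf e
  rw [he, map_zero, LinearMap.zero_apply, g.map_eq_zero_iff, t_eq_zero] at this
  exact this.resolve_right hw

end Ten

/-- A subalgebra normalised by all transvections is trivial or everything. -/
theorem eq_top_of_nz_sl [Fintype F] [FiniteDimensional F E] {𝔄 : Subalgebra F (End F E)}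
    (hN : ∀ (l : Dual F E) (u : E) (h : l u = 0), Nz 𝔄 (LinearEquiv.transvection h))
    (hex : ¬ (finrank F E = 2 ∧ Fintype.card F = 2)) {α : End F E} (hα : α ∈ 𝔄)
    (hα' : ∀ c : F, α ≠ c • 1) : 𝔄 = ⊤ := by
  obtain ⟨u, hu⟩ := exists_notMem_span_of_ne hα'
  have hu0 : u ≠ 0 := by rintro rfl; simp at hu
  have : Nontrivial E := ⟨u, 0, hu0⟩
  have h2 : 2 ≤ finrank F E := by
    simpa using (H62.linearIndependent_pair_of_notMem hu0 hu).fintype_card_le_finrank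
  have tv : ∀ (l : Dual F E) (u : E) (h : l u = 0) (β : End F E) (x : E),
      (LinearEquiv.transvection h).conj β x =
        β x - l x • β u + (l (β x) - l x * l (β u)) • u := fun l u h β x => by
    have : (LinearEquiv.transvection h).symm x = x - l x • u := by
      rw [LinearEquiv.symm_apply_eq]; simp [LinearMap.transvection.apply, h]
    rw [LinearEquiv.conj_apply_apply, this]
    simp [LinearMap.transvection.apply]
  -- an element killing `u`
  obtain ⟨β, hβ, hβ0, hβu⟩ : ∃ β ∈ 𝔄, β ≠ 0 ∧ β u = 0 := by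
    by_contra hc
    push Not at hc
    obtain ⟨l, h3, h4⟩ := H62.exists_dual_pair hu
    have key : ∀ c : F, ∀ x, LinearEquiv.transvection (f := c • l) (v := u) (by simp [h4])
        (α ((LinearEquiv.transvection (f := c • l) (v := u) (by simp [h4])).symm x)) =
          α x + c • x := fun c x => by
      have := hc _ (sub_mem (sub_mem (hN (c • l) u (by simp [h4]) α hα) hα)
        (𝔄.smul_mem 𝔄.one_mem c))
      rw [not_imp_comm, not_not] at this
      have := LinearMap.congr_fun (this (by simp [tv, h3, h4])) x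
      rw [LinearMap.sub_apply, LinearMap.sub_apply, sub_sub, LinearMap.zero_apply,
        sub_eq_zero] at this
      exact this
    have h5 := card_le_of_shift α Finset.univ fun c _ => ⟨_, key c⟩
    have h6 := finrank_le_of_shift one_ne_zero (key 1)
    have h7 : finrank F (mv (LinearEquiv.transvection (f := (1 : F) • l) (v := u) (by simp [h4]))) ≤
        finrank F (F ∙ u) := Submodule.finrank_mono (mv_le.2 fun y => by
      simpa [LinearMap.transvection.apply] using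
        Submodule.smul_mem _ _ (Submodule.mem_span_singleton_self u))
    have h8 := Fintype.one_lt_card (α := F)
    rw [finrank_span_singleton hu0] at h7
    rw [Finset.card_univ] at h5
    omega
  -- an element of rank one
  obtain ⟨μ, hμ0, hμ⟩ : ∃ μ : Dual F E, μ ≠ 0 ∧ μ.smulRight u ∈ 𝔄 := by
    obtain ⟨x, hx⟩ : ∃ x, β x ≠ 0 := by
      by_contra hc; push Not at hc; exact hβ0 (LinearMap.ext hc)
    by_cases hc : ∀ x, β x ∈ F ∙ u
    · obtain ⟨l, hl⟩ := H62.exists_dual_of_ne_zero (F := F) hu0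
      have e : (l ∘ₗ β).smulRight u = β := LinearMap.ext fun y => by
        obtain ⟨c, hc⟩ := Submodule.mem_span_singleton.1 (hc y)
        simp [← hc, hl]
      exact ⟨l ∘ₗ β, fun h => hβ0 (by rw [← e, h]; simp), e.symm ▸ hβ⟩
    · push Not at hc
      obtain ⟨y, hy⟩ := hc
      obtain ⟨l, h3, h4⟩ := H62.exists_dual_pair hy
      refine ⟨l ∘ₗ β, fun h => by simpa [h3] using LinearMap.congr_fun h y, ?_⟩
      convert sub_mem (hN l u h4 β hβ) hβ using 1
      ext x; simp [tv, hβu]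
  -- all elements of rank one
  have left : ∀ (u : E) (μ : Dual F E), u ≠ 0 → μ ≠ 0 → μ.smulRight u ∈ 𝔄 →
      ∀ x, μ.smulRight x ∈ 𝔄 := fun u μ hu0 hμ0 hμ x => by
    let X : Submodule F E := (Subalgebra.toSubmodule 𝔄).comap (LinearMap.smulRightₗ μ)
    have hX : ∀ x, x ∈ X ↔ μ.smulRight x ∈ 𝔄 := fun x => Iff.rfl
    have k1 : ∀ x, x ∉ F ∙ u → μ u ≠ μ x → x ∈ X := fun x h1 h2 => by
      obtain ⟨l, h3, h4⟩ := H62.exists_dual_pair (H62.notMem_span_symm hu0 h1)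
      have h5 : (μ u - μ x) • (u + x) ∈ X := by
        rw [hX]
        convert mul_mem (hN l x h4 _ hμ) hμ using 1
        ext y; simp [tv, h3]; module
      rw [X.smul_mem_iff (sub_ne_zero.2 h2)] at h5
      exact (X.add_mem_iff_right ((hX u).2 hμ)).1 h5
    have k2 : F ∙ u ≤ X := (Submodule.span_singleton_le_iff_mem _ _).2 ((hX u).2 hμ)
    rw [← hX]
    by_cases h1 : x ∈ F ∙ u
    · exact k2 h1
    by_cases h2 : μ u = μ x
    swap; · exact k1 x h1 h2
    by_cases h3 : μ u = 0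
    · obtain ⟨y, hy⟩ : ∃ y, μ y ≠ 0 := by
        by_contra hc; push Not at hc; exact hμ0 (LinearMap.ext hc)
      have k3 : ∀ y, μ y ≠ 0 → y ∈ X := fun y hy => k1 y (fun h => by
        obtain ⟨c, rfl⟩ := Submodule.mem_span_singleton.1 h
        simp [h3] at hy) (by rwa [h3, ne_comm])
      simpa using sub_mem (k3 (x + y) (by simpa [← h2, h3] using hy)) (k3 y hy)
    · simpa using add_mem (k1 (x - u) (fun h => h1 (by
        simpa using add_mem h (Submodule.mem_span_singleton_self u))) (by simpa [← h2] using h3))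
        (k2 (Submodule.mem_span_singleton_self u))
  refine eq_top_of_rank_one fun x l => ?_
  by_cases hl : l = 0
  · simp [hl]
  -- move the functional
  have right : ∀ l : Dual F E, l ∉ F ∙ μ → l.smulRight u ∈ 𝔄 := fun l h1 => by
    obtain ⟨y, h2, h3⟩ : ∃ y, μ y = 1 ∧ l y = 0 := by
      by_contra hc
      push Not at hc
      obtain ⟨c, hc'⟩ := H62.exists_smul_of_ker_le (φ := l) (ψ := μ) fun y hy => by
        by_contra h
        exact hc ((μ y)⁻¹ • y) (by simp [h]) (by simp [hy])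
      exact H62.notMem_span_symm hμ0 h1 (Submodule.mem_span_singleton.2 ⟨c, hc'.symm⟩)
    convert sub_mem hμ (mul_mem (left u μ hu0 hμ0 hμ u)
      (hN l y h3 _ (left u μ hu0 hμ0 hμ y))) using 1
    ext x; simp [tv, h2, h3]; module
  by_cases h1 : l ∈ F ∙ μ
  · obtain ⟨c, rfl⟩ := Submodule.mem_span_singleton.1 h1
    convert 𝔄.smul_mem (left u μ hu0 hμ0 hμ x) c using 1
    ext y; simp [smul_smul]
  · exact left u l hu0 hl (right l h1) x

end H56
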