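/- Maximality of the stabiliser of a tensor decomposition in the special linear group. -/
import Cfsg.Agent.H56.TenAlg

set_option autoImplicit false

namespace H56

open Module H62

variable {F E W V : Type*} [Field F] [AddCommGroup E] [Module F E] [AddCommGroup W] [Module F W]
  [AddCommGroup V] [Module F V]

theorem det_eq_one_of_mv_le [FiniteDimensional F V] {y : V ≃ₗ[F] V} {L : Submodule F V}
    (h1 : mv y ≤ L) (h2 : ∀ v ∈ L, y v = v) : LinearMap.det (y : V →ₗ[F] V) = 1 := by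
  have h : IsNilpotent (1 - (y : V →ₗ[F] V)) := ⟨2, LinearMap.ext fun v => by
    have := h2 _ (h1 (sub_mem_mv y v))
    rw [map_sub] at this
    simp only [pow_two, End.mul_apply, LinearMap.sub_apply, End.one_apply, LinearEquiv.coe_coe,
      map_sub, LinearMap.zero_apply]
    linear_combination (norm := module) this⟩
  have := LinearMap.eval_charpoly (1 - (y : V →ₗ[F] V)) 1
  rw [h.charpoly_eq_X_pow_finrank] at this
  simpa using this.symm

theorem tv_symm {l : Dual F E} {u : E} (h : l u = 0) (x : E) :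
    (LinearEquiv.transvection h).symm x = x - l x • u := by
  rw [LinearEquiv.symm_apply_eq]; simp [LinearMap.transvection.apply, h]

theorem exists_dual_two (h3 : 3 ≤ finrank F W) (u w : W) :
    ∃ φ : Dual F W, φ ≠ 0 ∧ φ u = 0 ∧ φ w = 0 := by
  have := Module.finite_of_finrank_pos (R := F) (M := W) (by omega)
  obtain ⟨x, -, hx⟩ := exists_mem_notMem (W := ⊤) (Z := Submodule.span F {x | x ∈ [u, w]})
    (by have := finrank_span_list_le (F := F) [u, w]; simp only [finrank_top, List.length] at *; omega)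
  obtain ⟨φ, h1, h2⟩ := exists_dual_eq_one hx
  exact ⟨φ, fun e => by simp [e] at h1, h2 u (Submodule.subset_span (by simp)),
    h2 w (Submodule.subset_span (by simp))⟩

theorem exists_vec_pair {φ ψ : Dual F W} (h : φ ∉ F ∙ ψ) : ∃ u, φ u = 1 ∧ ψ u = 0 := by
  by_contra hc
  push Not at hc
  obtain ⟨c, hc'⟩ := exists_smul_of_ker_le (φ := ψ) (ψ := φ) fun y hy => by
    by_contra h
    exact hc ((φ y)⁻¹ • y) (by simp [h]) (by simp [hy])
  exact h (Submodule.mem_span_singleton.2 ⟨c, hc'.symm⟩)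

/-- A relation on incident point-hyperplane pairs with the closure properties of root groups. -/
theorem pairs_all {P : W → Dual F W → Prop} (s1 : ∀ (c : F) w ψ, P w ψ → P (c • w) ψ)
    (s2 : ∀ (c : F) w ψ, P w ψ → P w (c • ψ))
    (a1 : ∀ w w' (ψ : Dual F W), ψ w' = 0 → P w ψ → P w' ψ → P (w - w') ψ)
    (a2 : ∀ w (ψ ψ' : Dual F W), ψ w = 0 → ψ' w = 0 → P w ψ → P w ψ' → P w (ψ - ψ'))
    (cj : ∀ (φ : Dual F W) u w (ψ : Dual F W), φ u = 0 → P w ψ →
      P (w + φ w • u) (ψ - ψ u • φ))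
    (h3 : 3 ≤ finrank F W) {w₀ : W} {ψ₀ : Dual F W} (hw : w₀ ≠ 0) (hψ : ψ₀ ≠ 0) (h0 : ψ₀ w₀ = 0)
    (h : P w₀ ψ₀) (w : W) (ψ : Dual F W) (h1 : ψ w = 0) : P w ψ := by
  have k1 : ∀ w (ψ : Dual F W), ψ ≠ 0 → ψ w = 0 → P w ψ → ∀ φ : Dual F W, φ w = 0 → P w φ :=
    fun w ψ h1 h2 h3 φ h4 => by
      by_cases h5 : φ ∈ F ∙ ψ
      · obtain ⟨c, rfl⟩ := Submodule.mem_span_singleton.1 h5
        exact s2 c _ _ h3
      · have h5' := notMem_span_symm h1 h5
        obtain ⟨u, h6, h7⟩ := exists_vec_pair h5'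
        have h8 := cj φ u w ψ h7 h3
        rw [h4, h6, zero_smul, add_zero, one_smul] at h8
        have := a2 w ψ (ψ - φ) h2 (by rw [LinearMap.sub_apply, h2, h4, sub_zero]) h3 h8
        rwa [sub_sub_cancel] at this
  obtain ⟨φ, h2, h4, h5⟩ := exists_dual_two h3 w₀ w
  refine k1 w φ h2 h5 ?_ ψ h1
  have h6 := k1 w₀ ψ₀ hψ h0 h φ h4
  by_cases h7 : w ∈ F ∙ w₀
  · obtain ⟨c, rfl⟩ := Submodule.mem_span_singleton.1 h7
    exact s1 c _ _ h6
  · obtain ⟨l, h8, h9⟩ := exists_dual_pair (notMem_span_symm hw h7)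
    have h10 := cj l w w₀ φ h9 h6
    rw [h5, h8, zero_smul, sub_zero, one_smul] at h10
    have := a1 (w₀ + w) w₀ φ h4 h10 h6
    rwa [add_sub_cancel_left] at this

namespace Ten

variable (T : Ten F E W V)

include T in
theorem finite [FiniteDimensional F E] [FiniteDimensional F W] : FiniteDimensional F V :=
  T.eqv.finiteDimensional

include T in
theorem finrank_eq : finrank F V = finrank F E * finrank F W := by
  rw [← T.eqv.finrank_eq, Module.finrank_tensorProduct]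

theorem cR_sub (φ ψ : Dual F W) (y : V) : T.cR (φ - ψ) y = T.cR φ y - T.cR ψ y :=
  (T.cRat y).map_sub φ ψ

theorem rt_tv {φ : Dual F W} {w : W} (h : φ w = 0) (y : V) :
    T.rt (LinearEquiv.transvection h) y = y + T.t (T.cR φ y) w :=
  T.induction y (by simp) (by simp [LinearMap.transvection.apply])
    fun x y hx hy => by simp only [map_add, hx, hy, LinearMap.add_apply]; abel

variable [FiniteDimensional F E] [FiniteDimensional F W]

theorem det_rt_tv {φ : Dual F W} {w : W} (h : φ w = 0) :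
    LinearMap.det (T.rt (LinearEquiv.transvection h) : V →ₗ[F] V) = 1 :=
  have := T.finite
  det_eq_one_of_mv_le (L := T.LS (F ∙ w))
    (mv_le.2 fun y => T.mem_LS_span.2 ⟨T.cR φ y, by simp [rt_tv]⟩) fun v hv => by
      obtain ⟨e, rfl⟩ := T.mem_LS_span.1 hv
      simp [LinearMap.transvection.apply, h]

/-- The transvections of type `l ⊗ ψ`, `e ⊗ w` with `ψ w = 0` generate the special linear group. -/
theorem sl_le_of_tv [Nontrivial W] {M : Subgroup (V ≃ₗ[F] V)}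
    (h : ∀ w (ψ : Dual F W), ψ w = 0 → ∀ (l : Dual F E) e, HasTv M (l ∘ₗ T.cR ψ) (T.t e w))
    (h2 : 2 ≤ finrank F W) (g : V ≃ₗ[F] V) (hg : LinearMap.det (g : V →ₗ[F] V) = 1) : g ∈ M := by
  let b := finBasis F E
  let c := finBasis F W
  let B := (b.tensorProduct c).map T.eqv
  have hB : ∀ i j, B (i, j) = T.t (b i) (c j) := fun i j => by simp [B, t_def]
  have hB' : ∀ i j, B.coord (i, j) = b.coord i ∘ₗ T.cR (c.coord j) := fun i j =>
    B.ext fun ⟨k, l⟩ => by
      conv_rhs => rw [hB]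
      simp only [Basis.coord_apply, Basis.repr_self, Finsupp.single_apply, Prod.mk.injEq,
        LinearMap.comp_apply, cR_t, map_smul, smul_eq_mul]
      by_cases h1 : k = i <;> by_cases h2 : l = j <;> simp [h1, h2]
  refine mem_of_det_eq_one_of_basis B (fun ⟨i, j⟩ ⟨k, l⟩ hne a => ?_) g hg
  rw [hB, hB', ← LinearMap.smul_comp]
  by_cases hjl : j = l
  swap; · exact h _ _ (by simp [hjl]) _ _
  subst hjl
  have hik : i ≠ k := fun e => hne (by rw [e])
  have : Nontrivial (Fin (finrank F W)) := Fin.nontrivial_iff_two_le.2 h2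
  obtain ⟨m, hm⟩ := exists_ne j
  simpa using (h (c m) (c.coord j) (by simp [hm]) (a • b.coord k) (b i)).comm_left (by simp [hm])
    (h (c j) (c.coord m) (by simp [hm.symm]) (b.coord i) (b i)) (by simp [hm.symm]) (by simp [hik])

variable {T} {M : Subgroup (V ≃ₗ[F] V)}
  (hM : ∀ g ∈ T.grp, LinearMap.det (g : V →ₗ[F] V) = 1 → g ∈ M)
include hM

theorem rt_tv_mem {φ : Dual F W} {w : W} (h : φ w = 0) : T.rt (LinearEquiv.transvection h) ∈ M :=
  hM _ (T.rt_mem _) (T.det_rt_tv h)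

/-- A non-scalar value forces `M` to contain the special linear group. -/
theorem sl_le_of_nonscalar [Fintype F] (h3 : 3 ≤ finrank F W)
    (hex : ¬ (finrank F E = 2 ∧ Fintype.card F = 2)) {w₀ z : W} (hw : w₀ ≠ 0) {α : End F E}
    (hα : α ∈ T.E0 M z (Submodule.mem_top (x := w₀))) (hα' : ∀ c : F, α ≠ c • 1)
    (g : V ≃ₗ[F] V) (hg : LinearMap.det (g : V →ₗ[F] V) = 1) : g ∈ M := by
  have hz : z ∉ F ∙ w₀ := fun hz => by
    obtain ⟨c, rfl⟩ := Submodule.mem_span_singleton.1 hz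
    obtain ⟨Φ, h1, h2⟩ := hα
    exact hα' 0 (LinearMap.ext fun e => by simp [← h2, h1.1])
  obtain ⟨ψ, h1, h2, h4⟩ := exists_dual_two h3 w₀ z
  obtain ⟨μ, m1, m2⟩ := exists_dual_pair hz
  obtain ⟨l, l1, l2⟩ := exists_dual_pair (notMem_span_symm hw hz)
  have l3 : (-l) z = 0 := by simp [l2]
  have hA := eq_top_of_nz_sl (𝔄 := Algebra.adjoin F (T.E0 M z (Submodule.mem_top (x := w₀))))
    (fun l u h => nz_E0 (by
      rw [← T.swap_tm]; exact rt_tv_mem (T := T.swap) (by simpa using hM) h))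
    hex (Algebra.subset_adjoin hα) hα'
  have hE := adjoin_E0_le (T := T) (M := M) (z := z) (h := Submodule.mem_top (x := w₀)) (W₂ := ⊤)
    (ψ := ψ) trivial le_rfl h2 (by simp) (s := LinearEquiv.transvection m2 *
      LinearEquiv.transvection l3 * LinearEquiv.transvection m2)
    (by simp only [map_mul]; exact mul_mem (mul_mem (rt_tv_mem hM _) (rt_tv_mem hM _)) (rt_tv_mem hM _))
    (by simp [LinearMap.transvection.apply, m1, m2, l1])
    (fun w _ => ⟨trivial, by simp [LinearEquiv.mul_eq_trans, tv_symm, h2, h4]⟩)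
    (fun c => ⟨T.cR (c • ψ), ⟨by simp [h2], _, rt_tv_mem hM (φ := c • ψ) (w := w₀) (by simp [h2]),
      fun y _ => T.rt_tv _ y⟩, by simp⟩)
  have : Nontrivial W := ⟨w₀, 0, hw⟩
  refine T.sl_le_of_tv (pairs_all (P := fun w ψ => ∀ (l : Dual F E) e,
    HasTv M (l ∘ₗ T.cR ψ) (T.t e w)) (fun c w ψ h l e => by simpa using h l (c • e))
    (fun c w ψ h l e => (h (c • l) e).congr fun x => by simp [cR_smul])
    (fun w w' ψ h0 h h' l e => by simpa using (h l e).sub_right (h' l e) (by simp [h0]))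
    (fun w ψ ψ' h0 h0' h h' l e => ((h l e).sub_left (h' l e) (by simp [h0]) (by simp [h0'])).congr
      fun x => by simp [cR_sub])
    (fun φ u w ψ h0 h l e => ?_) h3 hw h1 h2 fun l e => ?_) (by omega) g hg
  · have := (h l e).conj' (ψ := l ∘ₗ T.cR (ψ - ψ u • φ)) (rt_tv_mem hM h0) fun x => by
      refine T.induction x (by simp) (fun e w => ?_) fun x y hx hy => by
        simp only [map_add, hx, hy]
      simp [LinearMap.transvection.apply, h0]; ring
    simpa [LinearMap.transvection.apply] using this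
  · obtain ⟨Φ, ⟨-, m, hm, k1⟩, k2⟩ := hE (l.smulRight e) (hA ▸ Algebra.mem_top) 1
    refine ⟨m, hm, fun x => ?_⟩
    rw [k1 x (by simp), show Φ = (l ∘ₗ T.cR ψ).smulRight e from T.hom_ext fun e w => by
      simp [k2 e w trivial, smul_smul]]
    simp

omit [FiniteDimensional F E] [FiniteDimensional F W] hM in
theorem exists_dual_of_scalar [Nontrivial E] {Φ : V →ₗ[F] E} {W₁ : Submodule F W}
    (h : ∀ z ∈ W₁, ∃ c : F, ∀ e, Φ (T.t e z) = c • e) :
    ∃ φ : Dual F W, ∀ e, ∀ z ∈ W₁, Φ (T.t e z) = φ z • e := by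
  obtain ⟨e₀, he⟩ := exists_ne (0 : E)
  obtain ⟨l, hl⟩ := exists_dual_of_ne_zero (F := F) he
  refine ⟨l ∘ₗ Φ ∘ₗ T.t e₀, fun e z hz => ?_⟩
  obtain ⟨c, hc⟩ := h z hz
  simp [hc, hl]

/-- If all values are scalar, the stabiliser of `E ⊗ w₀` in `M` preserves the decomposition. -/
theorem stab_le_of_scalar [Nontrivial E] (hM' : ∀ g ∈ M, LinearMap.det (g : V →ₗ[F] V) = 1)
    {w₀ : W} (hw : w₀ ≠ 0)
    (hs : ∀ z, ∀ α ∈ T.E0 M z (Submodule.mem_top (x := w₀)), ∃ c : F, α = c • 1)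
    (g : V ≃ₗ[F] V) (hg : g ∈ M) (h : ∀ v ∈ T.LS (F ∙ w₀), g v ∈ T.LS (F ∙ w₀)) : g ∈ T.grp := by
  have := T.finite
  have hs' : ∀ Φ ∈ T.QA M (Submodule.mem_top (x := w₀)), ∃ φ : Dual F W, ∀ e, ∀ z ∈ (⊤ : Submodule F W),
      Φ (T.t e z) = φ z • e := fun Φ hΦ => exists_dual_of_scalar fun z _ => by
    obtain ⟨c, hc⟩ := hs z (Φ ∘ₗ T.t.flip z) ⟨Φ, hΦ, fun e => rfl⟩
    exact ⟨c, fun e => LinearMap.congr_fun hc e⟩
  obtain ⟨A, hA⟩ := T.exists_equiv_of_stab hw h
  have hA' : ∀ e, g.symm (T.t e w₀) = T.t (A.symm e) w₀ := fun e => g.injective (by simp [hA])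
  obtain ⟨B, b1, b2⟩ := T.exists_tensor_mod (W₁ := ⊤) hA fun φ' h0 => by
    obtain ⟨φ, hφ⟩ := hs' ((A.symm : E →ₗ[F] E) ∘ₗ T.cR φ' ∘ₗ (g : V →ₗ[F] V))
      ⟨by simp [hA, h0], _, mul_mem (mul_mem (inv_mem hg) (rt_tv_mem hM h0)) hg, fun y _ => by
        simp [rt_tv, hA']⟩
    exact ⟨φ, fun e w hw => A.symm.injective (by simpa using hφ e w hw)⟩
  have hB : Function.Injective B := (injective_iff_map_eq_zero B).2 fun w hw' => by
    obtain ⟨e, he⟩ := exists_ne (0 : E)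
    obtain ⟨x, hx⟩ := b2 e w trivial
    have : T.t e w = T.t (A.symm x) w₀ := g.injective (by simp [hx, hw', hA])
    obtain ⟨c, rfl⟩ := Submodule.mem_span_singleton.1
      ((T.t_mem_LS_iff he).1 (T.mem_LS_span.2 ⟨_, this⟩))
    simpa [b1] using hw'
  let k := T.tm A (LinearEquiv.ofInjectiveEndo B hB)
  have k1 : ∀ e, k.symm (T.t e w₀) = T.t (A.symm e) w₀ := fun e => k.injective (by simp [k, b1])
  have u1 : mv (k⁻¹ * g) ≤ T.LS (F ∙ w₀) := by
    rw [mv, LinearMap.range_le_iff_comap, eq_top_iff, ← T.LS_top, T.LS_le]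
    intro e w _
    obtain ⟨x, hx⟩ := b2 e w trivial
    refine T.mem_LS_span.2 ⟨A.symm x, ?_⟩
    have : k.symm (T.t (A e) (B w)) = T.t e w := k.injective (by simp [k])
    simp [hx, this, k1]
  have u2 : ∀ v ∈ T.LS (F ∙ w₀), (k⁻¹ * g) v = v := fun v hv => by
    obtain ⟨e, rfl⟩ := T.mem_LS_span.1 hv
    simp [hA, k1]
  have u3 : k⁻¹ * g ∈ M := by
    refine mul_mem (inv_mem (hM k (T.tm_mem _ _) ?_)) hg
    have := hM' g hg
    rwa [← mul_inv_cancel_left k g, LinearEquiv.coe_toLinearMap_mul, map_mul,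
      det_eq_one_of_mv_le u1 u2, mul_one] at this
  obtain ⟨ψ, hψ⟩ := exists_dual_of_ne_zero (F := F) hw
  have u4 : ∀ y, (k⁻¹ * g) y = y + T.t (T.cR ψ ((k⁻¹ * g) y - y)) w₀ := fun y => by
    obtain ⟨e, he⟩ := T.mem_LS_span.1 (u1 (sub_mem_mv _ y))
    rw [he, cR_t, hψ, one_smul, ← he, add_sub_cancel]
  obtain ⟨φ, hφ⟩ := hs' (T.cR ψ ∘ₗ (((k⁻¹ * g : V ≃ₗ[F] V) : V →ₗ[F] V) - LinearMap.id))
    ⟨fun e => by simp [hA, k1], _, u3, fun y _ => by
      rw [LinearMap.comp_apply, LinearMap.sub_apply, LinearMap.id_apply, LinearEquiv.coe_coe]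
      exact u4 y⟩
  have h0 : φ w₀ = 0 := by
    obtain ⟨e, he⟩ := exists_ne (0 : E)
    simpa [hA, k1, he] using (hφ e w₀ trivial).symm
  have : k⁻¹ * g = T.rt (LinearEquiv.transvection h0) := T.equiv_ext fun e w => by
    rw [u4, rt_tv, cR_t, ← hφ e w trivial, LinearMap.comp_apply, LinearMap.sub_apply,
      LinearMap.id_apply, LinearEquiv.coe_coe]
  rw [← mul_inv_cancel_left k g, this]
  exact mul_mem (T.tm_mem _ _) (T.rt_mem _)

omit hM in
/-- If a conjugate of `1 ⊗ B` with `B` of rank one preserves the decomposition, then the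
conjugating element maps `E ⊗ u` to some `E ⊗ w`. -/
theorem exists_map_LS (hab : finrank F E < finrank F W) [Nontrivial E] {B : W ≃ₗ[F] W} {u : W}
    (hu : u ≠ 0) (hB : mv B = F ∙ u) {g : V ≃ₗ[F] V} (h : g * T.rt B * g⁻¹ ∈ T.grp) :
    ∃ w, w ≠ 0 ∧ ∀ v ∈ T.LS (F ∙ u), g v ∈ T.LS (F ∙ w) := by
  have := T.finite
  have h1 : finrank F (mv (g * T.rt B * g⁻¹)) = finrank F E := by
    rw [finrank_mv_conj, mv_rt, hB, T.finrank_LS_span hu]
  obtain ⟨C, hC⟩ := T.exists_eq_rt_of_finrank h (h1 ▸ hab)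
  have h2 := h1
  rw [hC, mv_rt, finrank_LS, Nat.mul_eq_left finrank_pos.ne'] at h2
  obtain ⟨w, h3, h4⟩ := finrank_eq_one_iff'.1 h2
  refine ⟨w, by simpa using h3, fun v hv => T.LS_mono (J := mv C) (fun x hx => ?_) ?_⟩
  · obtain ⟨c, hc⟩ := h4 ⟨x, hx⟩
    exact Submodule.mem_span_singleton.2 ⟨c, congrArg Subtype.val hc⟩
  · rw [← mv_rt, ← hC, mv_conj, mv_rt, hB]
    exact Submodule.mem_map_of_mem hv

omit [FiniteDimensional F E] [FiniteDimensional F W] hM in
theorem _root_.H56.mv_tv {φ : Dual F W} {u : W} (h : φ u = 0) (hφ : φ ≠ 0) :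
    mv (LinearEquiv.transvection h) = F ∙ u := by
  refine le_antisymm (mv_le.2 fun y => Submodule.mem_span_singleton.2
    ⟨φ y, by simp [LinearMap.transvection.apply]⟩) ((Submodule.span_singleton_le_iff_mem _ _).2 ?_)
  obtain ⟨y, hy⟩ := DFunLike.ne_iff.1 hφ
  exact ⟨(φ y)⁻¹ • y, by simp [LinearMap.transvection.apply, smul_smul, show φ y ≠ 0 from hy]⟩

/-- **Maximality of `GL(E) ⊗ GL(W)` in `SL(E ⊗ W)`.** -/
theorem sl_max [Fintype F] (ha : 2 ≤ finrank F E) (hab : finrank F E < finrank F W)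
    (hex : ¬ (finrank F E = 2 ∧ Fintype.card F = 2))
    (hM' : ∀ g ∈ M, LinearMap.det (g : V →ₗ[F] V) = 1) (hne : ¬ M ≤ T.grp)
    (g : V ≃ₗ[F] V) (hg : LinearMap.det (g : V →ₗ[F] V) = 1) : g ∈ M := by
  have := T.finite
  have : Nontrivial E := Module.nontrivial_of_finrank_pos (R := F) (by omega)
  have : Nontrivial W := Module.nontrivial_of_finrank_pos (R := F) (by omega)
  by_contra hc
  have H1 := fun w₀ (hw : w₀ ≠ 0) => stab_le_of_scalar hM hM' hw fun z α hα => by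
    by_contra h
    exact hc (sl_le_of_nonscalar hM (by omega) hex hw hα (by simpa using h) g hg)
  have rig : ∀ (φ : Dual F W) u (h : φ u = 0), φ ≠ 0 → u ≠ 0 →
      Rigid M T.grp (T.rt (LinearEquiv.transvection h)) := fun φ u h h1 h2 => by
    refine ⟨rt_tv_mem hM h, fun g hg h3 => ?_⟩
    obtain ⟨w, h4, h5⟩ := exists_map_LS hab h2 (mv_tv h h1) h3
    by_cases h6 : w ∈ F ∙ u
    · exact H1 u h2 g hg fun v hv =>
        T.LS_mono ((Submodule.span_singleton_le_iff_mem _ _).2 h6) (h5 v hv)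
    obtain ⟨l, l1, l2⟩ := exists_dual_pair (F := F) (u := u - w) (w := w) fun e => h6 (by
      obtain ⟨c, hc⟩ := Submodule.mem_span_singleton.1 e
      have h7 : (1 + c) • w = c • u := by linear_combination (norm := module) -hc
      by_cases h8 : 1 + c = 0
      · rw [h8, zero_smul, eq_neg_of_add_eq_zero_right h8] at h7
        exact absurd (by simpa using h7) h2
      · exact ((F ∙ u).smul_mem_iff h8).1 (h7 ▸ Submodule.smul_mem _ _
          (Submodule.mem_span_singleton_self u)))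
    refine (mul_mem_cancel_left (T.rt_mem (LinearEquiv.transvection l2))).1
      (H1 u h2 _ (mul_mem (rt_tv_mem hM l2) hg) fun v hv => ?_)
    obtain ⟨e, he⟩ := T.mem_LS_span.1 (h5 v hv)
    exact T.mem_LS_span.2 ⟨e, by simp [he, LinearMap.transvection.apply, l1]⟩
  obtain ⟨w₀, hw⟩ := exists_ne (0 : W)
  obtain ⟨k, c⟩ := exists_crit (T.LS (F ∙ w₀)) hne
  obtain ⟨y, y1, y2⟩ := c.exists_notMem (H1 w₀ hw)
  by_cases hD : ∃ e, e ≠ 0 ∧ k (T.t e w₀) ∈ T.LS (F ∙ w₀)
  · obtain ⟨e, e1, e2⟩ := hD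
    obtain ⟨⟨φ, a⟩, p1, p2⟩ := (Submodule.ne_bot_iff _).1 (LinearMap.ker_ne_bot_of_finrank_lt
      (f := ((T.cRat y).coprod (LinearMap.toSpanSingleton F E (-e))).prod
        ((Dual.eval F W w₀).coprod (0 : F →ₗ[F] F))) (by simpa using hab))
    obtain ⟨p3, p4⟩ : T.cR φ y = a • e ∧ φ w₀ = 0 := by simpa [add_neg_eq_zero] using p1
    refine y2 (c.mem_of (rig φ w₀ p4 (by
      rintro rfl
      rw [← cRat_apply, map_zero, eq_comm, smul_eq_zero, or_iff_left e1] at p3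
      exact p2 (by rw [p3]; rfl)) hw) (fun v hv hv' => ?_) y1 ?_)
    · obtain ⟨x, rfl⟩ := T.mem_LS_span.1 hv
      simpa [LinearMap.transvection.apply, p4] using hv'
    · rw [rt_tv, p3]
      simpa using add_mem y1 (Submodule.smul_mem _ a e2)
  · obtain ⟨φ, p1, p2⟩ := (Submodule.ne_bot_iff _).1 (LinearMap.ker_ne_bot_of_finrank_lt
      (f := T.cRat y) (by simpa using hab))
    obtain ⟨u, u1, u2⟩ := (Submodule.ne_bot_iff _).1 (LinearMap.ker_ne_bot_of_finrank_lt
      (f := φ) (by simp; omega))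
    rw [LinearMap.mem_ker] at u1
    refine y2 (c.mem_of (rig φ u u1 p2 u2) (fun v hv hv' => ?_) y1 ?_)
    · obtain ⟨x, rfl⟩ := T.mem_LS_span.1 hv
      obtain rfl : x = 0 := by_contra fun h => hD ⟨x, h, hv'⟩
      simp
    · rwa [rt_tv, show T.cR φ y = 0 from p1, map_zero, LinearMap.zero_apply, add_zero]

end Ten

end H56
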