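/- The tensor decomposition attached to a bijection `ι ≃ Fin n₁ × Fin n₂` and a matrix `P`. -/
import Cfsg.Agent.H56.TenSL

set_option autoImplicit false

namespace H56

open Module H62 Matrix Cfsg.Geo
open scoped Kronecker

variable {F : Type*} [Field F] {ι : Type} [Fintype ι] [DecidableEq ι] {n₁ n₂ : ℕ}

/-- The decomposition with pure tensors `P (x ⊗ y ∘ e)`. -/
noncomputable def matTen (e : ι ≃ Fin n₁ × Fin n₂) (P : GL ι F) :
    Ten F (Fin n₁ → F) (Fin n₂ → F) (ι → F) :=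
  ⟨((Pi.basisFun F (Fin n₁)).tensorProduct (Pi.basisFun F (Fin n₂))).equivFun ≪≫ₗ
    LinearEquiv.funCongrLeft F F e ≪≫ₗ toLE P⟩

theorem matTen_t (e : ι ≃ Fin n₁ × Fin n₂) (P : GL ι F) (x : Fin n₁ → F) (y : Fin n₂ → F) :
    (matTen e P).t x y = (P : Matrix ι ι F) *ᵥ ((fun p => x p.1 * y p.2) ∘ e) := by
  rw [Ten.t_def, ← toLE_apply]
  refine congrArg (toLE P) (funext fun i => ?_)
  obtain ⟨⟨j, k⟩, rfl⟩ := e.symm.surjective i
  simp [LinearEquiv.funCongrLeft_apply, LinearMap.funLeft_apply, mul_comm]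

theorem kronecker_mulVec (a : Matrix (Fin n₁) (Fin n₁) F) (b : Matrix (Fin n₂) (Fin n₂) F)
    (x : Fin n₁ → F) (y : Fin n₂ → F) :
    (a ⊗ₖ b) *ᵥ (fun p => x p.1 * y p.2) = fun p => (a *ᵥ x) p.1 * (b *ᵥ y) p.2 := by
  ext p
  simp only [mulVec, dotProduct, kroneckerMap_apply, Fintype.sum_prod_type, Finset.sum_mul_sum]
  exact Finset.sum_congr rfl fun i _ => Finset.sum_congr rfl fun j _ => by ring

theorem mem_tensorProductSubgroup_iff (e : ι ≃ Fin n₁ × Fin n₂) (P g : GL ι F) :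
    g ∈ tensorProductSubgroup n₁ n₂ e P ↔ toLE g ∈ (matTen e P).grp := by
  have key : ∀ (k : GL (Fin n₁ × Fin n₂) F) (a : GL (Fin n₁) F) (b : GL (Fin n₂) F),
      k.1 = a.1 ⊗ₖ b.1 →
      toLE (P * glReindex e.symm k * P⁻¹) = (matTen e P).tm (toLE a) (toLE b) := fun k a b h =>
    (matTen e P).equiv_ext fun x y => by
      rw [Ten.tm_t, matTen_t, matTen_t, ← toLE_apply, ← toLE_apply, ← LinearEquiv.mul_apply,
        ← map_mul, inv_mul_cancel_right, map_mul, LinearEquiv.mul_apply, toLE_apply, toLE_apply,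
        toLE_apply, toLE_apply, toLE_apply, ← kronecker_mulVec, ← h]
      refine congrArg _ ?_
      have : ((glReindex e.symm k : GL ι F) : Matrix ι ι F) = k.1.submatrix e e := rfl
      rw [this, submatrix_mulVec_equiv, Function.comp_assoc, e.self_comp_symm, Function.comp_id]
  constructor
  · rintro ⟨_, ⟨k, ⟨a, b, h⟩, rfl⟩, rfl⟩
    exact ⟨_, _, key k a b h⟩
  · rintro ⟨A, B, h⟩
    obtain ⟨a, rfl⟩ := toLE.surjective A
    obtain ⟨b, rfl⟩ := toLE.surjective B
    let k : GL (Fin n₁ × Fin n₂) F := ⟨a.1 ⊗ₖ b.1, (a⁻¹).1 ⊗ₖ (b⁻¹).1,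
      by rw [← mul_kronecker_mul]; simp, by rw [← mul_kronecker_mul]; simp⟩
    exact ⟨_, ⟨k, ⟨a, b, rfl⟩, rfl⟩, toLE.injective ((key k a b rfl).trans h.symm)⟩

end H56

namespace H56.Ten

open Module H62

variable {F E W V : Type*} [Field F] [AddCommGroup E] [Module F E] [AddCommGroup W] [Module F W]
  [AddCommGroup V] [Module F V] (T : Ten F E W V) [FiniteDimensional F E] [FiniteDimensional F W]

/-- An element of the tensor group moves a space of dimension at least `min (dim E) (dim W)`. -/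
theorem eq_one_of_finrank [Nontrivial E] {g : V ≃ₗ[F] V} (hg : g ∈ T.grp)
    (h1 : finrank F (mv g) < finrank F W) (h2 : finrank F (mv g) < finrank F E) : g = 1 := by
  have := T.finite
  obtain ⟨B, rfl⟩ := T.exists_eq_rt_of_finrank hg h1
  rw [mv_rt, finrank_LS] at h2
  have h3 : mv B = ⊥ := Submodule.finrank_eq_zero.1 (by
    by_contra h; exact absurd h2 (not_lt.2 (Nat.le_mul_of_pos_right _ (Nat.pos_of_ne_zero h))))
  rw [show B = 1 from LinearEquiv.ext fun y => sub_eq_zero.1 (h3.le (sub_mem_mv B y)), map_one]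

theorem tv_notMem (ha : 2 ≤ finrank F E) (hb : 2 ≤ finrank F W) {φ : Dual F V} {u : V}
    (h : φ u = 0) (hφ : φ ≠ 0) (hu : u ≠ 0) : LinearEquiv.transvection h ∉ T.grp := fun hg => by
  have : Nontrivial E := Module.nontrivial_of_finrank_pos (R := F) (by omega)
  have h1 := mv_tv h hφ
  have h2 := T.eq_one_of_finrank hg (by rw [h1, finrank_span_singleton hu]; omega)
    (by rw [h1, finrank_span_singleton hu]; omega)
  rw [h2] at h1
  obtain ⟨y, hy⟩ := h1.ge (Submodule.mem_span_singleton_self u)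
  exact hu (by simpa using hy.symm)

theorem exists_tv_notMem (ha : 2 ≤ finrank F E) (hb : 2 ≤ finrank F W) :
    ∃ g : V ≃ₗ[F] V, LinearMap.det (g : V →ₗ[F] V) = 1 ∧ g ∉ T.grp := by
  have := T.finite
  have h3 : 3 ≤ finrank F V := by rw [T.finrank_eq]; nlinarith
  have : Nontrivial V := Module.nontrivial_of_finrank_pos (R := F) (by omega)
  obtain ⟨u, hu⟩ := exists_ne (0 : V)
  obtain ⟨φ, h1, h2, -⟩ := exists_dual_two h3 u u
  exact ⟨_, by rw [det_of_tv (LinearEquiv.transvection.apply h2), h2, add_zero],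
    T.tv_notMem ha hb h2 h1 hu⟩

end H56.Ten
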