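import Cfsg.Agent.H63.KgvSpec
import Cfsg.Agent.H28.Degree

/-! Tower KGV: the semilinear sum is a combination of characters. -/

set_option autoImplicit false

namespace H56.KgvSM

open Finset Cfsg H63.Kgv

universe u

theorem split (k : ℕ) (hk : 0 < k) (F : ℕ → ℂ) :
    ∑ j ∈ range (k * (k + 2)), F j =
      ∑ j ∈ (range (k * (k + 2))).filter (fun j => j < (k + 1) * j % (k * (k + 2))),
        (F j + F ((k + 1) * j % (k * (k + 2)))) + ∑ i ∈ range k, F ((k + 2) * i) := by
  set N := k * (k + 2) with hN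
  have hN0 : 0 < N := by positivity
  have hs : ∀ j, j < N → (k + 1) * ((k + 1) * j % N) % N = j := fun j hj => by
    rw [Nat.mul_mod, Nat.mod_mod, ← Nat.mul_mod,
      show (k + 1) * ((k + 1) * j) = j + N * j by rw [hN]; ring, Nat.add_mul_mod_self_left,
      Nat.mod_eq_of_lt hj]
  rw [← sum_filter_add_sum_filter_not (range N) (fun j => j < (k + 1) * j % N), sum_add_distrib,
    add_assoc, ← sum_filter_add_sum_filter_not ((range N).filter fun j => ¬ j < (k + 1) * j % N)
      (fun j => (k + 1) * j % N < j)]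
  refine congrArg _ (congrArg₂ (· + ·) ?_ ?_)
  · symm
    refine sum_nbij' (fun j => (k + 1) * j % N) (fun j => (k + 1) * j % N) ?_ ?_ ?_ ?_ ?_
    · intro j hj
      simp only [mem_filter, mem_range] at hj ⊢
      rw [hs j hj.1]
      exact ⟨⟨Nat.mod_lt _ hN0, by omega⟩, hj.2⟩
    · intro j hj
      simp only [mem_filter, mem_range] at hj ⊢
      rw [hs j hj.1.1]
      exact ⟨Nat.mod_lt _ hN0, hj.2⟩
    · intro j hj
      simp only [mem_filter, mem_range] at hj
      exact hs j hj.1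
    · intro j hj
      simp only [mem_filter, mem_range] at hj
      exact hs j hj.1.1
    · intro j _
      rfl
  · symm
    refine sum_bij (fun i _ => (k + 2) * i) ?_ ?_ ?_ fun _ _ => rfl
    · intro i hi
      have h1 : (k + 2) * i < N := by
        rw [hN, mul_comm k]; exact Nat.mul_lt_mul_of_pos_left (mem_range.1 hi) (by omega)
      have h2 : (k + 1) * ((k + 2) * i) % N = (k + 2) * i := by
        rw [show (k + 1) * ((k + 2) * i) = (k + 2) * i + N * i by rw [hN]; ring,
          Nat.add_mul_mod_self_left, Nat.mod_eq_of_lt h1]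
      simp only [mem_filter, mem_range, h2]
      exact ⟨⟨h1, lt_irrefl _⟩, lt_irrefl _⟩
    · intro i _ j _ h
      exact Nat.eq_of_mul_eq_mul_left (by omega) h
    · intro j hj
      simp only [mem_filter, mem_range] at hj
      have h1 : (k + 1) * j % N = j := by omega
      have h2 := Nat.mod_add_div ((k + 1) * j) N
      rw [h1] at h2
      have h3 : (k + 2) * ((k + 1) * j / N) = j := by
        apply Nat.eq_of_mul_eq_mul_left hk
        rw [← mul_assoc, ← hN]
        have : (k + 1) * j = j + k * j := by ring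
        omega
      refine ⟨(k + 1) * j / N, mem_range.2 ?_, h3⟩
      by_contra h4
      have : (k + 2) * k ≤ (k + 2) * ((k + 1) * j / N) := Nat.mul_le_mul_left _ (not_lt.1 h4)
      rw [h3, mul_comm, ← hN] at this
      omega

theorem sum_two {E : Type u} [Group E] [Fintype E] {H : Subgroup E} (hi : H.index = 2)
    (F : E → ℂ) (A B : ℂ) (h1 : ∀ g ∈ H, F g = A) (h2 : ∀ g, g ∉ H → F g = B) :
    (Nat.card H : ℂ)⁻¹ * ∑ g, F g = A + B := by
  classical
  have c1 : (univ.filter (· ∈ H)).card = Nat.card H := by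
    rw [Nat.card_eq_fintype_card, Fintype.card_subtype]
  have c2 : (univ.filter (fun g => ¬ g ∈ H)).card = Nat.card H := by
    have := card_filter_add_card_filter_not (s := (univ : Finset E)) (· ∈ H)
    have h3 := H.card_mul_index
    rw [hi, Nat.card_eq_fintype_card (α := E)] at h3
    rw [card_univ] at this
    omega
  rw [← sum_filter_add_sum_filter_not univ (· ∈ H),
    sum_congr rfl fun g hg => h1 g (mem_filter.1 hg).2,
    sum_congr rfl fun g hg => h2 g (mem_filter.1 hg).2, sum_const, sum_const, c1, c2, nsmul_eq_mul,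
    nsmul_eq_mul, ← mul_add, inv_mul_cancel_left₀ (H33.natCard_ne_zero H)]

theorem job : JSM.{u} := by
  intro gc p _ E _ _ H _ q x φ a b Γ hq hi hx hm h1 hc ha hb g1 g2
  classical
  obtain ⟨c1, c2, c3, c4, -, c6, -, c8⟩ := gc p E
  obtain ⟨k, rfl⟩ : ∃ k, q = k + 1 := ⟨q - 1, by omega⟩
  have hk : 0 < k := by omega
  have eN : (k + 1) ^ 2 - 1 = k * (k + 2) := by
    rw [show (k + 1) ^ 2 = k * (k + 2) + 1 by ring, Nat.add_sub_cancel]
  rw [eN] at ha g1
  rw [Nat.add_sub_cancel] at g2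
  have mm := fun u v : E => Subgroup.mul_mem_iff_of_index_two hi (a := u) (b := v)
  let Φ : E → ℂ := extendByZero H φ
  have Φc : ∀ h : H, Φ h = φ h := H33.ext0_coe H φ
  have Φm : ∀ u ∈ H, ∀ v ∈ H, Φ (u * v) = Φ u * Φ v := fun u hu v hv => by
    exact ((Φc (⟨u, hu⟩ * ⟨v, hv⟩)).trans (hm _ _)).trans
      (congrArg₂ (· * ·) (Φc ⟨u, hu⟩).symm (Φc ⟨v, hv⟩).symm)
  have Φ1 : Φ 1 = 1 := (Φc 1).trans h1
  have cj : ∀ g : E, ∀ u ∈ H, g * u * g⁻¹ ∈ H := fun g u hu => Subgroup.Normal.conj_mem ‹_› u hu g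
  have Φi : ∀ g ∈ H, ∀ u ∈ H, Φ (g * u * g⁻¹) = Φ u := fun g hg u hu => by
    rw [Φm _ (H.mul_mem hg hu) _ (H.inv_mem hg), Φm _ hg _ hu, mul_right_comm,
      ← Φm _ hg _ (H.inv_mem hg), mul_inv_cancel, Φ1, one_mul]
  have Φo : ∀ g, g ∉ H → ∀ u ∈ H, Φ (g * u * g⁻¹) = Φ u ^ (k + 1) := fun g hg u hu => by
    have h2 : g * x⁻¹ ∈ H := (mm _ _).2 (by simp [hg, hx])
    rw [show g * u * g⁻¹ = g * x⁻¹ * (x * u * x⁻¹) * (g * x⁻¹)⁻¹ by group, Φi _ h2 _ (cj x u hu),
      show Φ u = φ ⟨u, hu⟩ from Φc ⟨u, hu⟩, hc, ← Φc]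
    rfl
  have sq : ∀ y : E, y * y ∈ H := fun y => (mm _ _).2 Iff.rfl
  have Φ0 : ∀ u ∈ H, Φ u ≠ 0 := fun u hu h0 => by
    have := Φm _ hu _ (H.inv_mem hu)
    rw [mul_inv_cancel, Φ1, h0, zero_mul] at this
    exact one_ne_zero this
  have ΦN : ∀ u ∈ H, Φ u ^ (k * (k + 2)) = 1 := fun u hu => by
    have h2 := Φo x hx _ (cj x u hu)
    rw [Φo x hx u hu, show x * (x * u * x⁻¹) * x⁻¹ = x * x * u * (x * x)⁻¹ by group,
      Φi _ (sq x) _ hu, ← pow_mul, show (k + 1) * (k + 1) = k * (k + 2) + 1 by ring, pow_succ] at h2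
    exact (mul_eq_right₀ (Φ0 u hu)).1 h2.symm
  let l : E →* ℂ :=
    { toFun := fun y => if y ∈ H then Φ y ^ (k + 2) else Φ (y * y)
      map_one' := by simp [Φ1]
      map_mul' := fun u v => by
        by_cases hu : u ∈ H <;> by_cases hv : v ∈ H
        · rw [if_pos (H.mul_mem hu hv), if_pos hu, if_pos hv, Φm _ hu _ hv, mul_pow]
        · rw [if_neg (by simp [mm, hu, hv]), if_pos hu, if_neg hv,
            show u * v * (u * v) = u * (v * u * v⁻¹) * (v * v) by group,
            Φm _ (H.mul_mem hu (cj v u hu)) _ (sq v), Φm _ hu _ (cj v u hu), Φo v hv u hu]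
          ring
        · rw [if_neg (by simp [mm, hu, hv]), if_neg hu, if_pos hv,
            show u * v * (u * v) = (u * v * u⁻¹) * (u * u) * v by group,
            Φm _ (H.mul_mem (cj u v hv) (sq u)) _ hv, Φm _ (cj u v hv) _ (sq u), Φo u hu v hv]
          ring
        · have huv : u * v ∈ H := by simp [mm, hu, hv]
          rw [if_pos huv, if_neg hu, if_neg hv, ← Φm _ (sq u) _ (sq v), pow_succ,
            ← Φo u hu _ huv, ← Φm _ (cj u _ huv) _ huv]
          congr 1; group }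
  let f : H →* ℂ := ⟨⟨φ, h1⟩, hm⟩
  have chl : ∀ i : ℕ, IsGeneralizedCharacter E fun y => l y ^ i := fun i =>
    H28.Cfsg.IsCharacter.isGeneralizedCharacter
      (by simpa using H28.isCharacter_of_hom (l.toHomUnits ^ i))
  have chf : ∀ j : ℕ, IsGeneralizedCharacter E (indFun H fun h => φ h ^ j) := fun j =>
    H28.Cfsg.IsCharacter.isGeneralizedCharacter (H32.isCharacter_indFun H
      (by simpa [f] using H28.isCharacter_of_hom (f.toHomUnits ^ j)))
  refine c1 _ _ (c3 _ _ (c6 (-1)) (c2 _ _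
    (c8 ℕ ((range (k * (k + 2))).filter (fun j => j < (k + 1) * j % (k * (k + 2)))) _
      fun j _ => c4 _ (a j) (chf j)).1
    (c8 ℕ (range k) _ fun i _ => c4 _ (2 * b i) (chl i)).1)) fun t _ y => ?_
  rw [Int.cast_neg, Int.cast_one, neg_one_mul]
  by_cases hy : y ∈ H
  · rw [g1 t ⟨y, hy⟩, split k hk, ← Φc]
    congr 2
    · refine sum_congr rfl fun j _ => ?_
      rw [ha, ← mul_add, H33.indFun_normal_apply H _ ⟨y, hy⟩,
        sum_two hi _ (Φ y ^ j) (Φ y ^ ((k + 1) * j)) (fun g hg => by rw [← Φc, ← Φi g hg y hy])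
          fun g hg => by rw [← Φc, pow_mul, ← Φo g hg y hy]]
      congr 2
      conv_rhs => rw [← Nat.mod_add_div ((k + 1) * j) (k * (k + 2)), pow_add, pow_mul, ΦN y hy,
        one_pow, mul_one]
    · refine sum_congr rfl fun i _ => ?_
      rw [show k + 2 = k + 1 + 1 from rfl, hb, pow_mul]
      simp [l, hy]
  · simp only [H33.indFun_eq_zero_of_not_mem H _ hy, mul_zero, sum_const_zero, zero_add]
    rw [g2 t y ⟨y * y, sq y⟩ hy (pow_two y).symm, ← Φc]
    refine congrArg _ (sum_congr rfl fun i _ => ?_)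
    rw [mul_comm 2 t, mul_assoc]
    simp [l, hy]

end H56.KgvSM
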