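import Cfsg.Agent.H53.COrth
import Cfsg.Agent.H58.GForm2
import Cfsg.Agent.H58.OQuot

/-! Centralisers of semisimple elements of odd order in the conformal orthogonal group cover the
outer diagonal automorphisms (odd characteristic, even dimension). -/

set_option autoImplicit false

namespace H56.SSC

open Polynomial Module QuadraticMap H58

theorem isConjUnder_iff {X : Type*} [Group X] {K H : Subgroup X} {x : X} (hKH : K ≤ H)
    (h : ∀ g ∈ H, ∃ c, c * x = x * c ∧ g * c ∈ K) (y : X) :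
    Cfsg.IsConjUnder K x y ↔ Cfsg.IsConjUnder H x y := by
  refine ⟨fun ⟨g, hg, e⟩ => ⟨g, hKH hg, e⟩, fun ⟨g, hg, e⟩ => ?_⟩
  obtain ⟨c, hc, hk⟩ := h g hg
  refine ⟨g * c, hk, ?_⟩
  rw [e, mul_assoc g c, hc]
  group

variable {F : Type*} [Field F]

section gen
variable {V : Type*} [AddCommGroup V] [Module F V] [FiniteDimensional F V] {Q : QuadraticForm F V}
  {k : O Q} {r : ℕ}

theorem ed_cases (h2 : (2 : F) ≠ 0) (hr : (r : F) ≠ 0) (ho : Odd r) (hk : k ^ r = 1) :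
    ∀ P ∈ H53.ed k.lin, Irreducible P ∧ (P = X - C 1 ∨ IsCoprime P (X ^ 2 - 1)) := by
  intro P hP
  have h1 : aeval k.lin (X ^ r - C 1 : F[X]) = 0 := by
    rw [map_sub, map_pow, aeval_X, ← H53.lin_pow, hk, C_1, map_one]
    exact sub_eq_zero.2 rfl
  have h3 := (H53.aeval_eq_zero_iff_ed _ _).1 h1 P hP
  have h4 : Irreducible P := (H53.ed_isPP _ P hP).irreducible_of_dvd_squarefree
    (separable_X_pow_sub_C (1 : F) hr one_ne_zero).squarefree h3
  refine ⟨h4, ?_⟩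
  by_cases h5 : P = X - 1
  · exact Or.inl h5
  refine Or.inr (H53.isCoprime_X_sq_sub_one (H53.ed_isPP _ P hP).monic h4 h5 fun h6 => h2 ?_)
  rw [h6, show (X + 1 : F[X]) = X - C (-1) by simp, dvd_iff_isRoot] at h3
  simp only [IsRoot, eval_sub, eval_pow, eval_X, eval_C, ho.neg_one_pow] at h3
  linear_combination -h3

theorem exists_spinor [Finite F] (hQ : Q.polarBilin.Nondegenerate) (h2 : (2 : F) ≠ 0)
    (hr : (r : F) ≠ 0) (ho : Odd r) (hk : k ^ r = 1) (hk1 : k ≠ 1) :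
    ∃ j : O Q, dickson hQ j = 1 ∧ spinor hQ j ≠ 1 ∧ j * k = k * j := by
  obtain ⟨P, hP, hc⟩ : ∃ P ∈ H53.ed k.lin, IsCoprime P (X ^ 2 - 1) := by
    by_contra h
    push Not at h
    have h1 : aeval k.lin (X - C 1 : F[X]) = 0 := (H53.aeval_eq_zero_iff_ed _ _).2 fun P hP => by
      rw [(ed_cases h2 hr ho hk P hP).2.resolve_right (h P hP)]
    rw [map_sub, aeval_X, C_1, map_one, sub_eq_zero] at h1
    exact hk1 (O.ext fun v => LinearMap.congr_fun h1 v)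
  obtain ⟨θ, hθ, hQ', j, h1, h3, rfl⟩ := H53.exists_cen_of_irreducible h2 hQ (H53.qinv_lin k) hP
    (ed_cases h2 hr ho hk P hP).1 hc
  exact ⟨j, (dickson_eq_one_iff_det hQ h2 j).2 h3, hθ, O.ext fun v => LinearMap.congr_fun h1 v⟩

omit [FiniteDimensional F V] in
theorem exists_fix_ne (hQ : Q.polarBilin.Nondegenerate) (hr : (r : F) ≠ 0) (hk : k ^ r = 1)
    {v : V} (hv : k v = v) (hv0 : v ≠ 0) : ∃ w, k w = w ∧ Q w ≠ 0 := by
  obtain ⟨w, hw⟩ : ∃ w, polar Q v w ≠ 0 := by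
    by_contra h
    push Not at h
    exact hv0 (hQ.1 v h)
  have h1 : ∀ i : ℕ, (k ^ i) v = v := fun i => by
    induction i with
    | zero => rfl
    | succ i ih => rw [pow_succ, O.mul_apply, hv, ih]
  let u : V := ∑ i ∈ Finset.range r, (k ^ i) w
  have hu : k u = u := by
    have h3 : k u = ∑ i ∈ Finset.range r, (k ^ (i + 1)) w := by
      change k.lin _ = _
      rw [map_sum]
      exact Finset.sum_congr rfl fun i _ => by rw [pow_succ']; rfl
    have h4 := Finset.sum_range_succ' (fun i => (k ^ i) w) r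
    rw [Finset.sum_range_succ, hk, pow_zero, ← h3] at h4
    exact (add_right_cancel h4).symm
  have h3 : polar Q v u = r * polar Q v w := by
    change Q.polarBilin v _ = _
    rw [map_sum, Finset.sum_congr rfl (g := fun _ => polar Q v w) fun i _ => by
      conv_lhs => rw [← h1 i]
      exact (k ^ i).map_polar v w]
    simp
  by_contra h
  push Not at h
  have h4 := h (v + u) (by change k.lin _ = _; rw [map_add]; exact congrArg₂ _ hv hu)
  rw [QuadraticMap.map_add Q, h v hv, h u hu, h3] at h4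
  exact mul_ne_zero hr hw (by simpa using h4)

end gen

variable {ι : Type} [Fintype ι] [DecidableEq ι] {Q : QuadraticForm F (ι → F)} {k : O Q} {r : ℕ}

theorem det_of_commute (hQ : Q.polarBilin.Nondegenerate) (ho : Odd r) (hk : k ^ r = 1)
    (hf : ∀ v, k v = v → v = 0) {m : ℕ} (hm : Fintype.card ι = 2 * m)
    (e : (ι → F) ≃ₗ[F] (ι → F)) (c : Fˣ) (he : ∀ v, Q (e v) = c * Q v)
    (hc : ∀ v, e (k v) = k (e v)) : LinearMap.det e.toLinearMap = (c : F) ^ m := by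
  let B : LinearMap.BilinForm F (ι → F) := Q.polarBilin ∘ₗ (k.lin - (k⁻¹).lin)
  have hB : ∀ x y, B x y = polar Q (k x) y - polar Q (k⁻¹ x) y := fun x y => by
    simp [B]
  have h1 : ∀ x y, polar Q (k⁻¹ x) y = polar Q x (k y) := fun x y => by
    rw [← k.map_polar]; simp
  have hA : B.IsAlt := fun x => by
    rw [hB, h1, polar_comm]; simp
  have hN : B.Nondegenerate := by
    refine hA.isRefl.nondegenerate_iff_separatingLeft.2 fun x hx => hf x ?_
    have h3 : k x = k⁻¹ x := sub_eq_zero.1 (hQ.1 _ fun y => by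
      have := hx y
      rw [hB] at this
      simpa [polar_sub_left] using this)
    have h4 : ∀ i : ℕ, ((k * k) ^ i) x = x := fun i => by
      induction i with
      | zero => rfl
      | succ i ih => rw [pow_succ, O.mul_apply, O.mul_apply, h3]; simpa using ih
    obtain ⟨s, rfl⟩ := ho
    have h5 := h4 (s + 1)
    rwa [← pow_two, ← pow_mul, show 2 * (s + 1) = (2 * s + 1) + 1 by ring, pow_succ, hk, one_mul] at h5
  have hc' : ∀ v, e (k⁻¹ v) = k⁻¹ (e v) := fun v => by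
    apply k.injective
    rw [← hc]; simp
  have h3 := (pair_alt_iff hN hA hm).1 (pair_of_equiv (B := B) (c := c) e fun u v => by
    rw [hB, hB, ← hc, ← hc', mul_sub]
    have := polar_map_of_mul e.toLinearMap (c : F) he
    simp only [LinearEquiv.coe_coe] at this
    rw [this, this])
  rw [← LinearEquiv.coe_det, h3, Units.val_pow_eq_pow_val]

variable [Finite F]

theorem exists_GP [Nontrivial (ι → F)] (hQ : Q.polarBilin.Nondegenerate) (h2 : (2 : F) ≠ 0)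
    (hev : Even (finrank F (ι → F))) (hr : (r : F) ≠ 0) (ho : Odd r) (hk : k ^ r = 1) (c : Fˣ) :
    ∃ δ ∈ GP hQ, δ.c = c ∧ δ * Gam.ofO Q k = Gam.ofO Q k * δ := by
  obtain ⟨g, hg⟩ := exists_similarity hQ hev c.ne_zero
  have hQ' : ((c : F) • Q).polarBilin.Nondegenerate :=
    nondeg_of_equiv (Q := Q) g.symm (fun v => by
      rw [smul_apply, smul_eq_mul, ← hg, g.apply_symm_apply]) hQ
  obtain ⟨e, he, he'⟩ := H53.qiso_of_sim (Q' := Q) hQ' g (fun v => by simpa using hg v)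
    ((H53.qinv_lin k).smul c) (H53.qinv_lin k) (H53.Sim.refl _) (mul_one 1)
    fun P hP => (ed_cases h2 hr ho hk P hP).2
  have he2 : ∀ v, Q (e v) = c * Q v := fun v => by simpa using he' v
  let δ := Gam.ofSim e c c.ne_zero he2
  have hδ : δ * Gam.ofO Q k = Gam.ofO Q k * δ :=
    Gam.ext' (H58.exists_Q_ne_zero hQ) fun v => he v
  by_cases hs : sgn hQ δ = 1
  · exact ⟨δ, ⟨rfl, hs⟩, Units.ext rfl, hδ⟩
  by_cases hf : ∀ v, k v = v → v = 0
  · refine (hs ((sgn_eq_one_iff_det hQ hev h2 δ).2 ?_)).elim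
    obtain ⟨m, hm⟩ := hev
    rw [Gam.detG_eq_of (T := δ) rfl (g := e.toLinearMap) fun _ => rfl,
      det_of_commute hQ ho hk hf (m := m) (by simpa [two_mul] using hm) e c he2 he, hm,
      show (m + m) / 2 = m by omega]
    rfl
  · push Not at hf
    obtain ⟨v, hv, hv0⟩ := hf
    obtain ⟨w, hw, hw0⟩ := exists_fix_ne hQ hr hk hv hv0
    refine ⟨δ * Gam.ofO Q (refl Q w), ⟨?_, ?_⟩, Units.ext ?_, ?_⟩
    · simp [δ]
    · rw [sgn_mul hQ rfl rfl, sgn_refl hQ hev hw0, (Int.units_eq_one_or _).resolve_left hs]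
      simp
    · simp [δ, Gam.mul_c]
    · rw [← mul_assoc, ← hδ, mul_assoc, mul_assoc, Gam.mul_refl]
      simp [hw]

omit [Fintype ι] [DecidableEq ι] in
theorem exists_isometry {X : Type*} [Group X] {ρ : Gam Q →* X} (hρ : ρ.ker = (Gam.sc Q).range)
    (ho : Odd r) {S : Gam Q} (hS : S.σ = 1) (hSr : ρ S ^ r = 1) :
    ∃ k : O Q, k ^ r = 1 ∧ ρ S = ρ (Gam.ofO Q k) := by
  have h0 : ∀ s, ρ (Gam.sc Q s) = 1 := fun s => by
    rw [← MonoidHom.mem_ker, hρ]; exact ⟨s, rfl⟩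
  rw [← map_pow, ← MonoidHom.mem_ker, hρ] at hSr
  obtain ⟨a, ha⟩ := hSr
  have h1 : mcl Q S = 1 := by
    have h3 : mcl Q S ^ r = 1 := by
      rw [← map_pow, ← ha, mcl_eq_one_iff, Gam.sc_c]
      exact IsSquare.sq _
    obtain ⟨s, rfl⟩ := ho
    rwa [pow_succ, pow_mul, pow_two, SqCl.mul_self, one_pow, one_mul] at h3
  obtain ⟨s, l, rfl⟩ := exists_eq_sc_mul_of_isSquare hS (mcl_eq_one_iff.1 h1)
  have h3 : Gam.sc Q 1 * Gam.ofO Q (l ^ r) ∈ (⊥ : Subgroup (O Q)).map (Gam.ofO Q) ⊔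
      (Gam.sc Q).range := by
    refine Subgroup.mem_sup_right ⟨(s ^ r)⁻¹ * a, ?_⟩
    rw [map_mul, ha, (show Commute (Gam.sc Q s) (Gam.ofO Q l) from
      (Gam.sc_comm rfl s).symm).mul_pow, map_inv, map_pow, map_pow, map_one, one_mul,
      inv_mul_cancel_left]
  rw [map_mul, h0, one_mul]
  rcases (sc_mul_ofO_mem_iff 1 _).1 h3 with h4 | h4
  · exact ⟨l, h4, rfl⟩
  · refine ⟨O.negOne Q * l, ?_, by rw [map_mul, map_mul, ← Gam.sc_neg_one, h0, one_mul]⟩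
    obtain ⟨t, rfl⟩ := ho
    rw [(show Commute (O.negOne Q) l from
      (Subgroup.mem_center_iff.1 O.negOne_mem_center l).symm).mul_pow, pow_succ (O.negOne Q),
      pow_mul, pow_two, O.negOne_mul_self, one_pow, one_mul]
    exact h4

theorem fusion [Nontrivial (ι → F)] (hQ : Q.polarBilin.Nondegenerate) (h2 : (2 : F) ≠ 0)
    (hev : Even (finrank F (ι → F))) {X : Type*} [Group X] {ρ : Gam Q →* X}
    (hρ : ρ.ker = (Gam.sc Q).range) (hr : (r : F) ≠ 0) (ho : Odd r) {x : X}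
    (hx : x ∈ (GO Q).map ρ) (hxr : x ^ r = 1) (hx1 : x ≠ 1) :
    (∀ y, (Cfsg.IsConjUnder ((OmG Q).map ρ) x y ↔ Cfsg.IsConjUnder ((GP hQ).map ρ) x y) ∧
      (Cfsg.IsConjUnder ((SOG Q).map ρ) x y ↔ Cfsg.IsConjUnder ((GP hQ).map ρ) x y)) ∧
    ∀ y, Cfsg.IsConjUnder ((Gam.ofO Q).range.map ρ) x y ↔
      Cfsg.IsConjUnder ((GO Q).map ρ) x y := by
  obtain ⟨S, hS, rfl⟩ := hx
  obtain ⟨k, hk, hSk⟩ := exists_isometry hρ ho hS hxr
  rw [hSk] at hx1 ⊢
  have hk1 : k ≠ 1 := by rintro rfl; simp at hx1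
  have h0 : ∀ s, ρ (Gam.sc Q s) = 1 := fun s => by
    rw [← MonoidHom.mem_ker, hρ]; exact ⟨s, rfl⟩
  have hE := not_isExc_of_two_ne (Q := Q) h2
  have hA : ∀ g : Gam Q, g.σ = 1 → ∃ δ ∈ GP hQ, δ * Gam.ofO Q k = Gam.ofO Q k * δ ∧
      ∃ l, g * δ = Gam.ofO Q l := fun g hg => by
    obtain ⟨δ, h1, h3, h4⟩ := exists_GP hQ h2 hev hr ho hk g.c⁻¹
    obtain ⟨l, hl⟩ : g * δ ∈ (Gam.ofO Q).range :=
      Gam.mem_range_ofO.2 ⟨by rw [Gam.mul_σ, hg, h1.1, mul_one], by simp [Gam.mul_c, hg, h3]⟩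
    exact ⟨δ, h1, h4, l, hl.symm⟩
  have hB : ∀ g ∈ GP hQ, ∃ δ, δ * Gam.ofO Q k = Gam.ofO Q k * δ ∧ g * δ ∈ OmG Q := fun g hg => by
    obtain ⟨δ, h1, h3, l, hl⟩ := hA g hg.1
    have h4 : dickson hQ l = 1 := by
      rw [← sgn_ofO hQ hev, ← hl]
      exact ((GP hQ).mul_mem hg h1).2
    by_cases h5 : spinor hQ l = 1
    · exact ⟨δ, h3, l, (mem_commutator_iff hQ hE l).2 ⟨h4, h5⟩, hl.symm⟩
    obtain ⟨j, h6, h7, h8⟩ := exists_spinor hQ h2 hr ho hk hk1
    refine ⟨δ * Gam.ofO Q j, ?_, l * j, (mem_commutator_iff hQ hE _).2 ⟨?_, ?_⟩, ?_⟩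
    · rw [mul_assoc, ← map_mul, h8, map_mul, ← mul_assoc, h3, mul_assoc]
    · rw [map_mul, h4, h6, mul_one]
    · rw [map_mul, SqCl.eq_of_ne_one h5 h7, SqCl.mul_self]
    · rw [map_mul, ← hl, mul_assoc]
  have hle : OmG Q ≤ SOG Q := Subgroup.map_mono (Abelianization.commutator_subset_ker _)
  have hle' : SOG Q ≤ GP hQ := le_sup_left.trans (ZS_le_GP hQ h2)
  have hC : ∀ {K H : Subgroup (Gam Q)}, K ≤ H → (∀ g ∈ H, ∃ δ,
      δ * Gam.ofO Q k = Gam.ofO Q k * δ ∧ g * δ ∈ K) → ∀ y,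
      Cfsg.IsConjUnder (K.map ρ) (ρ (Gam.ofO Q k)) y ↔
        Cfsg.IsConjUnder (H.map ρ) (ρ (Gam.ofO Q k)) y := fun hKH h =>
    isConjUnder_iff (Subgroup.map_mono hKH) (by
      rintro _ ⟨g, hg, rfl⟩
      obtain ⟨δ, h1, h3⟩ := h g hg
      exact ⟨ρ δ, by rw [← map_mul, h1, map_mul], g * δ, h3, map_mul _ _ _⟩)
  refine ⟨fun y => ⟨hC (hle.trans hle') hB y, hC hle' (fun g hg => ?_) y⟩,
    hC (by rintro _ ⟨l, rfl⟩; rfl) fun g hg => ?_⟩
  · obtain ⟨δ, h1, h3⟩ := hB g hg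
    exact ⟨δ, h1, hle h3⟩
  · obtain ⟨δ, -, h3, l, hl⟩ := hA g hg
    exact ⟨δ, h3, l, hl.symm⟩

end H56.SSC
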