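import Cfsg.Agent.H62.TenSp4

set_option autoImplicit false
set_option linter.unusedSectionVars false

/-! Overgroups of `Sp₂ ⊗ O₄⁻` in `Sp₈`, part 1: the overlap of a critical element. -/

namespace H56

open Module H62

variable {F E W V : Type*} [Field F] [AddCommGroup E] [Module F E] [AddCommGroup W] [Module F W]
  [AddCommGroup V] [Module F V] [FiniteDimensional F E] [FiniteDimensional F W]
  [FiniteDimensional F V]
  {T : Ten F E W V} {b₁ : LinearMap.BilinForm F E} {b₂ : LinearMap.BilinForm F W}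
  {B : LinearMap.BilinForm F V} {M : Subgroup (V ≃ₗ[F] V)}

/-- No totally isotropic plane. -/
def NoPlane (b₂ : LinearMap.BilinForm F W) : Prop :=
  ∀ U : Submodule F W, (∀ u ∈ U, ∀ u' ∈ U, b₂ u u' = 0) → finrank F U ≠ 2

theorem NoPlane.mem_span (h : NoPlane b₂) (hs : ∀ x y, b₂ x y = b₂ y x) {u u' : W} (h0 : u ≠ 0)
    (hu : b₂ u u = 0) (hu' : b₂ u' u' = 0) (huu : b₂ u u' = 0) : u' ∈ F ∙ u := by
  by_contra hc
  refine h ((F ∙ u) ⊔ F ∙ u') (fun x hx y hy => ?_)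
    (by rw [Submodule.finrank_sup_span_singleton hc, finrank_span_singleton h0])
  rw [← Submodule.span_insert] at hx hy
  obtain ⟨a, b, rfl⟩ := Submodule.mem_span_pair.1 hx
  obtain ⟨c, d, rfl⟩ := Submodule.mem_span_pair.1 hy
  simp [hu, hu', huu, hs u' u]

theorem rigid24 (h : SpNT T b₁ b₂ B M) (hE : finrank F E = 2) (hW : finrank F W = 4)
    (hm : NoPlane b₂) {e : E} (he : e ≠ 0) {x : V ≃ₗ[F] V}
    (hx : x ∈ M) {c : F} (hc : c ≠ 0) (h1 : ∀ v, x v = v + c • T.t e (ph T b₁ e v)) :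
    Rigid M T.grp x := by
  refine ⟨hx, fun g hg ⟨A, C, hAC⟩ => ?_⟩
  have hs := h.sym₂
  have h2 := h.two
  have h3 := h.three
  obtain ⟨e', he'⟩ := h.exists_partner he
  have hmv : mv (T.tm A C) = (LinearMap.range (T.t e)).map (g : V →ₗ[F] V) := by
    rw [← hAC, mv_conj, h.mv_x he hc h1]
  have hrk : finrank F (mv (T.tm A C)) = finrank F W := by
    rw [hmv, LinearEquiv.finrank_map_eq, finrank_range_t he]
  by_cases hA : ∀ y, A y ∈ F ∙ y
  swap
  · push Not at hA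
    obtain ⟨y, hy⟩ := hA
    obtain ⟨l, l1, l2⟩ := exists_dual_pair hy
    obtain ⟨A', hA'⟩ := T.swap.exists_eq_rt (A := C) A fun w => by
      have h4 : ∀ v, T.tm A C (T.tm A C v) = (2 : F) • T.tm A C v - v := fun v => by
        obtain ⟨v, rfl⟩ := g.surjective v
        have h4 : x (x v) = (2 : F) • x v - v := by
          rw [h1 (x v), h.ph_fix hx fun w => by simp [h1, h.alt₁.self_eq_zero], h1]; module
        rw [← hAC]
        simp [h4]
      have h5 : l (A (A y)) • C w = (2 : F) • w :=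
        C.injective (by simpa [l1, l2] using congrArg (T.cL l) (h4 (T.t y w)))
      by_cases h6 : l (A (A y)) = 0
      · rw [h6, zero_smul, eq_comm, smul_eq_zero, or_iff_right h2] at h5
        simp [h5]
      · exact (Submodule.smul_mem_iff _ h6).1 (Submodule.mem_span_singleton.2 ⟨2, h5.symm⟩)
    rw [T.swap_tm] at hA'
    rw [hA', Ten.mv_rt] at hmv hrk
    rw [Ten.finrank_LS, Nat.mul_eq_left (by omega)] at hrk
    obtain ⟨f, f1, f2⟩ := finrank_eq_one_iff'.1 hrk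
    obtain ⟨A₀, hA₀, h4⟩ := sp_trans h.nd₁ h.alt₁ (e := f) (by simpa using f1) he
    refine (mul_mem_cancel_left (T.tm_mem A₀ 1)).1 (h.mem_grp_of_stab he _
      (M.mul_mem (h.tm_mem hA₀ (by simp)) hg) fun v hv => ?_)
    obtain ⟨w, hw⟩ := T.swap.mem_LS_span.1 (T.swap.LS_mono (J' := F ∙ (f : E)) (fun y hy => by
      obtain ⟨k, hk⟩ := f2 ⟨y, hy⟩
      exact Submodule.mem_span_singleton.2 ⟨k, congrArg Subtype.val hk⟩)
      (hmv.ge (Submodule.mem_map_of_mem hv)))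
    exact ⟨w, by rw [LinearEquiv.mul_apply, show g v = T.t f w from hw, Ten.tm_t, h4]; rfl⟩
  obtain ⟨C', hC'⟩ := T.exists_eq_rt C hA
  rw [hC'] at hmv hrk
  rw [Ten.mv_rt] at hmv hrk
  rw [Ten.finrank_LS, hE, hW] at hrk
  refine absurd (by omega) (hm (mv C') fun u hu u' hu' => ?_)
  obtain ⟨_, ⟨w, rfl⟩, h4⟩ := hmv.le (T.t_mem_LS e' hu)
  obtain ⟨_, ⟨w', rfl⟩, h5⟩ := hmv.le (T.t_mem_LS e hu')
  have := h.isom g hg (T.t e w) (T.t e w')
  rw [show g _ = _ from h4, show g _ = _ from h5] at this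
  simpa [h.eq, he', h.alt₁.self_eq_zero] using this

/-- A critical element for `Sp₂ ⊗ O₄⁻`. -/
structure S24 (T : Ten F E W V) (b₁ : LinearMap.BilinForm F E) (b₂ : LinearMap.BilinForm F W)
    (B : LinearMap.BilinForm F V) (M : Subgroup (V ≃ₗ[F] V)) (e e' : E) (g : V ≃ₗ[F] V) : Prop
    extends SpNT T b₁ b₂ B M where
  dim : finrank F E = 2
  four : finrank F W = 4
  minus : NoPlane b₂
  pair : b₁ e' e = 1
  crit : Crit M T.grp (LinearMap.range (T.t e)) g

variable {e e' : E} {g : V ≃ₗ[F] V}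

namespace S24

variable (h : S24 T b₁ b₂ B M e e' g)
include h

theorem of_crit {k : V ≃ₗ[F] V} (c : Crit M T.grp (LinearMap.range (T.t e)) k) :
    S24 T b₁ b₂ B M e e' k := ⟨h.toSpNT, h.dim, h.four, h.minus, h.pair, c⟩

theorem ne : e ≠ 0 := by rintro rfl; simpa using h.pair

theorem ee : b₁ e e = 0 := h.alt₁.self_eq_zero e

theorem mem_span {y : E} (hy : b₁ y e = 0) : y ∈ F ∙ e := by
  have h1 := LinearMap.finrank_range_add_finrank_ker (b₁.flip e)
  have h2 : LinearMap.range (b₁.flip e) = ⊤ := eq_top_iff.2 fun c _ => ⟨c • e', by simp [h.pair]⟩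
  rw [h2, finrank_top, finrank_self, h.dim] at h1
  exact (Submodule.eq_of_le_of_finrank_le (S₁ := F ∙ e) (S₂ := LinearMap.ker (b₁.flip e))
    (by simp [h.ee]) (by rw [finrank_span_singleton h.ne]; omega)).ge hy

theorem mem_L {v : V} (hv : ph T b₁ e v = 0) : v ∈ LinearMap.range (T.t e) :=
  h.mem_range fun y hy => by
    obtain ⟨c, rfl⟩ := Submodule.mem_span_singleton.1
      (h.mem_span (y := y) (by rw [alt_swap h.alt₁, hy, neg_zero]))
    simp [ph_smul, hv]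

theorem exists_x (c : F) : ∃ x ∈ M, ∀ v, x v = v + c • nn T b₁ e g v := by
  obtain ⟨x, hx, -, h1⟩ := h.inA_one e c
  exact ⟨g⁻¹ * x * g, M.mul_mem (M.mul_mem (M.inv_mem h.crit.mem) hx) h.crit.mem, fun v =>
    g.injective (by simp [h1, g_nn])⟩

theorem nn_nn (v : V) : nn T b₁ e g (nn T b₁ e g v) = 0 := g.injective (by simp [g_nn, h.ee])

theorem nn_of_mem {w : W} (hw : w ∈ dd T e g) : nn T b₁ e g (T.t e w) = 0 :=
  g.injective (by simp [g_nn, h.ph_of_mem h.ee (mem_dd.1 hw)])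

theorem key {k : V ≃ₗ[F] V} (c : Crit M T.grp (LinearMap.range (T.t e)) k) {y : V}
    (h1 : k y ∈ LinearMap.range (T.t e))
    (h2 : k (T.t e (ph T b₁ e y)) ∈ LinearMap.range (T.t e)) : y ∈ LinearMap.range (T.t e) := by
  obtain ⟨x, hx, -, h3⟩ := h.inA_one e 1
  refine c.mem_of (rigid24 h.toSpNT h.dim h.four h.minus h.ne hx one_ne_zero h3)
    (fun v hv hv' => ?_) h1 (by simpa [h3] using add_mem h1 h2)
  simpa [h3, h.ph_of_mem h.ee hv] using hv'

theorem perp {y : V} (hy : g y ∈ LinearMap.range (T.t e)) {w : W} (hw : w ∈ dd T e g) :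
    b₂ (ph T b₁ e y) w = 0 := by
  rw [← h.form_t, ← h.isom g h.crit.mem]
  exact h.form_of_mem (h.ph_of_mem h.ee hy) hw

theorem ker_th : LinearMap.ker (th T b₁ e g) = dd T e g := by
  refine le_antisymm (fun w hw => h.key (Crit.inv h.crit) (y := g (T.t e w)) (by simp) ?_)
    fun w hw => by simp [← ph_nn, h.nn_of_mem hw]
  exact h.mem_L hw

theorem range_th : LinearMap.range (th T b₁ e g) = b₂.orthogonal (dd T e g) := by
  refine Submodule.eq_of_le_of_finrank_le ?_ ?_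
  · rintro _ ⟨w, rfl⟩ x hx
    rw [h.sym₂]
    exact h.perp (by simp [g_nn]) hx
  · have := LinearMap.finrank_range_add_finrank_ker (th T b₁ e g)
    rw [h.ker_th] at this
    rw [LinearMap.BilinForm.finrank_orthogonal h.nd₂]
    omega

theorem nondeg {w : W} (h1 : w ∈ dd T e g) (h2 : w ∈ b₂.orthogonal (dd T e g)) : w = 0 := by
  obtain ⟨w, rfl⟩ := h.range_th.ge h2
  exact h.ph_of_mem h.ee (h.key h.crit (by simp [g_nn]) h1)

theorem nondeg' : ∀ x ∈ dd T e g, (∀ y ∈ dd T e g, b₂ x y = 0) → x = 0 :=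
  fun _ hx hx' => h.nondeg hx fun y hy => by rw [h.sym₂]; exact hx' y hy

theorem exists_perp : ∃ w ∈ b₂.orthogonal (dd T e g), w ≠ 0 := by
  by_contra hc
  push Not at hc
  refine h.crit.notMem (h.mem_grp_of_stab h.ne g h.crit.mem ?_)
  rintro _ ⟨w, rfl⟩
  exact h.ker_th.le (hc _ (h.range_th.le ⟨w, rfl⟩))

theorem comm_rf {z : W} (hz : b₂ z z ≠ 0) (h1 : g * T.rt (rf b₂ hz) * g⁻¹ ∈ T.grp) (v : V) :
    nn T b₁ e g (T.rt (rf b₂ hz) v) = T.rt (rf b₂ hz) (nn T b₁ e g v) := by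
  obtain ⟨C, hC⟩ := T.exists_eq_rt_of_finrank h1 (by
    have h2 : mv (rf b₂ hz) ≤ F ∙ z := mv_le.2 fun y =>
      Submodule.mem_span_singleton.2 ⟨-(2 * b₂ y z / b₂ z z), by simp [rf_apply]⟩
    have h3 := Submodule.finrank_mono h2
    have := h.three
    rw [finrank_span_singleton (by rintro rfl; simp at hz)] at h3
    rw [finrank_mv_conj, Ten.mv_rt, Ten.finrank_LS, h.dim]
    omega)
  have h2 : ∀ v, g (T.rt (rf b₂ hz) v) = T.tm 1 C (g v) := fun v => by
    change _ = T.rt C _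
    simpa using LinearEquiv.congr_fun hC (g v)
  exact g.injective (by simp [g_nn, h2, ph_tm_one])

theorem eigen {z : W} (h1 : z ∈ dd T e g) (hz : b₂ z z ≠ 0) :
    ∃ μ : F, nn T b₁ e g (T.t e' z) = μ • T.t e z := by
  have hr : T.rt (rf b₂ hz) ∈ M := h.tm_mem (A := 1) (by simp) (rf_isom h.sym₂ hz)
  have h2 : ∀ v, T.rt (rf b₂ hz) v = v - (2 / b₂ z z) • T.t (T.cR (b₂.flip z) v) z := fun v =>
    T.induction v (by simp) (fun f w => by simp [rf_apply, smul_smul, div_mul_eq_mul_div])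
      fun a b ha hb => by simp only [map_add, ha, hb, LinearMap.add_apply, smul_add]; abel
  have h3 : ∀ y, g y ∈ LinearMap.range (T.t e) → T.cR (b₂.flip z) y ∈ F ∙ e := fun y hy =>
    h.mem_span (by
      rw [← h.perp hy h1, eq_comm]
      exact T.apply_cL (b₁.flip e) (b₂.flip z) y)
  have h4 := h.comm_rf hz (h.mem_grp_of_stab h.ne _
    (M.mul_mem (M.mul_mem h.crit.mem hr) (M.inv_mem h.crit.mem)) fun v hv => by
      obtain ⟨v, rfl⟩ := g.surjective v
      obtain ⟨c, hc⟩ := Submodule.mem_span_singleton.1 (h3 v hv)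
      simpa [h2, ← hc] using sub_mem hv (Submodule.smul_mem _ _ (Submodule.smul_mem _ c h1)))
    (T.t e' z)
  obtain ⟨c, hc⟩ := Submodule.mem_span_singleton.1 (h3 (nn T b₁ e g (T.t e' z)) (by simp [g_nn]))
  rw [Ten.rt_t, rf_self, h2, ← hc, map_neg, map_neg, map_smul, LinearMap.smul_apply] at h4
  refine ⟨c / b₂ z z, smul_right_injective V h.two ?_⟩
  simp only [smul_smul] at h4 ⊢
  rw [mul_div_assoc', ← div_mul_eq_mul_div]
  linear_combination (norm := module) -h4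

theorem finrank_inf : finrank F ↥(LinearMap.range (T.t e) ⊓ (LinearMap.range (T.t e)).comap
    (g : V →ₗ[F] V)) = finrank F (dd T e g) := by
  rw [(Submodule.equivMapOfInjective _ (fun _ _ => (T.t_right_inj h.ne).1) _).finrank_eq,
    dd, Submodule.comap_comp, Submodule.map_comap_eq]

theorem two_le_overlap {z : W} (hz : b₂ z z ≠ 0) : 2 ≤ finrank F ↥(LinearMap.range (T.t e) ⊓
    (LinearMap.range (T.t e)).comap ((g * T.rt (rf b₂ hz) * g⁻¹ : V ≃ₗ[F] V) : V →ₗ[F] V)) := by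
  let L' := (LinearMap.range (T.t e)).comap (g : V →ₗ[F] V)
  have h3 : (L' ⊓ T.LS (LinearMap.ker (b₂.flip z))).map (g : V →ₗ[F] V) ≤
      LinearMap.range (T.t e) ⊓ (LinearMap.range (T.t e)).comap
        ((g * T.rt (rf b₂ hz) * g⁻¹ : V ≃ₗ[F] V) : V →ₗ[F] V) := by
    rintro _ ⟨v, hv, rfl⟩
    have : T.rt (rf b₂ hz) v = v := T.eqOn_LS (f := (T.rt (rf b₂ hz) : V →ₗ[F] V))
      (g := LinearMap.id) (fun f w hw => by simp [rf_of_perp hz hw]) hv.2
    exact ⟨hv.1, by simpa [this, L'] using hv.1⟩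
  replace h3 := Submodule.finrank_mono h3
  have h4 := Submodule.finrank_sup_add_finrank_inf_eq L' (T.LS (LinearMap.ker (b₂.flip z)))
  have h5 := Submodule.finrank_le (L' ⊔ T.LS (LinearMap.ker (b₂.flip z)))
  have h6 := finrank_le_finrank_inf_ker_add_one (⊤ : Submodule F W) (b₂.flip z)
  rw [top_inf_eq, finrank_top, h.four] at h6
  rw [T.finrank_eq, h.dim, h.four] at h5
  rw [finrank_comap_equiv, finrank_range_t h.ne, Ten.finrank_LS, h.dim, h.four] at h4
  rw [LinearEquiv.finrank_map_eq] at h3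
  omega

theorem le_dd : 2 ≤ finrank F (dd T e g) := by
  by_cases h2 : ∀ z (hz : b₂ z z ≠ 0), g * T.rt (rf b₂ hz) * g⁻¹ ∈ T.grp
  · have : Nontrivial W := Module.nontrivial_of_finrank_pos (R := F) (by have := h.three; omega)
    obtain ⟨x, hx, -, h3⟩ := h.inA_one e 1
    refine absurd ((rigid24 h.toSpNT h.dim h.four h.minus h.ne hx one_ne_zero h3).2 _
      (M.inv_mem h.crit.mem) (mem_grp_of_blocks fun l f => ?_)) (Crit.inv h.crit).notMem
    obtain ⟨c, hc⟩ := exists_smul_of_rf h.two h.sym₂ h.nd₂ h.three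
      (T.cL l ∘ₗ nn T b₁ e g ∘ₗ T.t f) fun z hz => ⟨0, fun w => by
        simp only [LinearMap.comp_apply]
        rw [← T.rt_t, h.comm_rf hz (h2 z hz), T.cL_rt, rf_rf, zero_smul, add_zero]⟩
    exact ⟨l f + c, fun w => by simpa [h3, add_smul, nn] using hc w⟩
  push Not at h2
  obtain ⟨z, hz, h2⟩ := h2
  have hr : T.rt (rf b₂ hz) ∈ M := h.tm_mem (A := 1) (by simp) (rf_isom h.sym₂ hz)
  rw [← h.finrank_inf]
  exact (h.two_le_overlap hz).trans (h.crit.max _
    (M.mul_mem (M.mul_mem h.crit.mem hr) (M.inv_mem h.crit.mem)) h2)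

theorem nu {w : W} (hw : w ∈ dd T e g) :
    ∃ w' ∈ dd T e g, nn T b₁ e g (T.t e' w) = T.t e w' := by
  let ν := T.cL (b₁ e') ∘ₗ nn T b₁ e g ∘ₗ T.t e'
  have : dd T e g ≤ LinearMap.eqLocus (nn T b₁ e g ∘ₗ T.t e') (T.t e ∘ₗ ν) ⊓
      (dd T e g).comap ν := by
    by_contra hc
    obtain ⟨a, a1, a2⟩ := exists_ns_of_nondeg h.two h.sym₂ h.nondeg' (by
      intro h0; have := h.le_dd; rw [h0, finrank_bot] at this; omega)
    obtain ⟨z, z1, z2, z3⟩ := exists_ns_notMem h.two h.sym₂ a1 a2 hc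
    obtain ⟨μ, hμ⟩ := h.eigen z1 z3
    exact z2 ⟨LinearMap.mem_eqLocus.2 (by simp [ν, hμ, h.pair]), Submodule.mem_comap.2 (by
      simpa [ν, hμ, h.pair] using Submodule.smul_mem _ μ z1)⟩
  exact ⟨ν w, (this hw).2, (this hw).1⟩

theorem false_of_sing {u : W} (u1 : u ∈ dd T e g) (u2 : u ≠ 0) (u3 : b₂ u u = 0) {μ : F}
    (h4 : nn T b₁ e g (T.t e' u) = μ • T.t e u) : False := by
  have hs := h.sym₂
  obtain ⟨x, hx, -, x1⟩ := h.inA_one e (-μ)
  obtain ⟨x', hx', x2⟩ := h.exists_x 1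
  obtain ⟨z, z1, z2⟩ := h.exists_perp
  refine z2 (h.nondeg (h.ker_th.le (h.nondeg ?_ (h.range_th.le ⟨z, rfl⟩))) z1)
  rw [← LinearMap.BilinForm.orthogonal_orthogonal h.nd₂ (fun x y hxy => by rwa [hs]) (dd T e g)]
  intro z' hz'
  have := h.eich h.ne u2 u3 (M.mul_mem hx hx') (fun f => by
    obtain ⟨c, hc⟩ := Submodule.mem_span_singleton.1
      (h.mem_span (y := f - b₁ f e • e') (by simp [h.pair]))
    rw [eq_sub_iff_add_eq] at hc
    rw [← hc]
    simp [x1, x2, h.nn_of_mem u1, h4, h.ee, h.pair, smul_comm μ]) (z := z) (z' := z')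
    (hs _ _ ▸ z1 u u1) (hs _ _ ▸ hz' u u1)
  rw [hs]
  simpa [h.form_t, x1, x2, h.ee, ph_nn] using this

theorem dim_dd [Finite F] : finrank F (dd T e g) = 2 := by
  refine le_antisymm (not_lt.1 fun h3 => ?_) h.le_dd
  have hs := h.sym₂
  let ν := T.cL (b₁ e') ∘ₗ nn T b₁ e g ∘ₗ T.t e'
  have h1 : ∀ w ∈ dd T e g, nn T b₁ e g (T.t e' w) = T.t e (ν w) ∧ ν w ∈ dd T e g := fun w hw => by
    obtain ⟨w', h1, h2⟩ := h.nu hw
    simp [ν, h2, h.pair, h1]
  obtain ⟨μ, hμ⟩ := exists_smul_of_ns3 (B := b₂.restrict (dd T e g)) h.two (fun x y => hs x y)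
    ⟨fun x hx => Subtype.ext (h.nondeg' _ x.2 fun y hy => hx ⟨y, hy⟩),
      fun x hx => Subtype.ext (h.nondeg' _ x.2 fun y hy => hs _ _ ▸ hx ⟨y, hy⟩)⟩ h3
    (ν.restrict fun w hw => (h1 w hw).2) fun z hz => by
      obtain ⟨μ, hμ⟩ := h.eigen z.2 hz
      exact ⟨μ, Subtype.ext (by simp [ν, hμ, h.pair])⟩
  obtain ⟨u, u1, u2, u3⟩ := H60.exists_sing (Q := b₂.toQuadraticMap) _ h3
  have h4 : ν u = μ • u := congrArg Subtype.val (hμ ⟨u, u1⟩)
  exact h.false_of_sing u1 u2 u3 (μ := μ) (by rw [(h1 u u1).1, h4, map_smul])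

/-- The form transported by `g`. -/
theorem form_nn {v v' : V} {ψ : W} (hv' : g v' = T.t e ψ) {φ : W}
    (hv : g (nn T b₁ e g v) = T.t e φ) : b₂ φ ψ = B v v' := by
  rw [g_nn, T.t_right_inj h.ne] at hv
  rw [← hv, ← h.form_t, ← hv', h.isom g h.crit.mem]

theorem aniso [Finite F] {u : W} (u1 : u ∈ dd T e g) (u3 : b₂ u u = 0) : u = 0 := by
  by_contra u2
  have hs := h.sym₂
  have h' := h.of_crit (Crit.inv h.crit)
  obtain ⟨φ, hφ⟩ := mem_dd.1 u1
  have h1 : b₂ φ φ = 0 := by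
    by_contra hc
    obtain ⟨μ, hμ⟩ := h'.eigen (z := φ) (mem_dd.2 ⟨u, by simp [hφ]⟩) hc
    have := h'.form_nn (v := T.t e' φ) (v' := T.t e φ) (ψ := u) (by simp [hφ]) (φ := μ • u)
      (by simp [hμ, hφ])
    simp [u3, h.eq, h.pair] at this
    exact hc this.symm
  obtain ⟨u', h2, h3⟩ := h.nu u1
  obtain ⟨φ', hφ'⟩ := mem_dd.1 h2
  have h4 : b₂ φ' φ = 0 := by
    simpa [h.eq, u3] using h.form_nn (v := T.t e' u) hφ.symm (φ := φ') (by rw [h3, hφ'])
  by_cases h5 : u' ∈ F ∙ u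
  · obtain ⟨μ, rfl⟩ := Submodule.mem_span_singleton.1 h5
    exact h.false_of_sing u1 u2 u3 (μ := μ) (by rw [h3, map_smul])
  have h6 : (F ∙ u) ⊔ (F ∙ u') = dd T e g := Submodule.eq_of_le_of_finrank_le (by simp [u1, h2])
    (by rw [Submodule.finrank_sup_span_singleton h5, finrank_span_singleton u2, h.dim_dd])
  refine u2 (h.nondeg' u u1 fun w hw => ?_)
  obtain ⟨w', h7, h8⟩ := h.nu hw
  rw [← h6, ← Submodule.span_insert] at h7
  obtain ⟨a, b, rfl⟩ := Submodule.mem_span_pair.1 h7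
  have := h.form_nn (v := T.t e' w) hφ.symm (φ := a • φ + b • φ') (by simp [h8, hφ, hφ'])
  simpa [h.eq, h.pair, h1, h4, hs u w] using this.symm

end S24

end H56
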