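import Cfsg.Agent.H56.Sp8T1
import Cfsg.Agent.H62.TenSpMat

set_option autoImplicit false
set_option linter.unusedSectionVars false

/-! Overgroups of `Sp₂ ⊗ O₄⁻` in `Sp₈`, part 2: maximality. -/

namespace H56

open Module H62

section

variable {F E W V : Type*} [Field F] [AddCommGroup E] [Module F E] [AddCommGroup W] [Module F W]
  [AddCommGroup V] [Module F V] [FiniteDimensional F E] [FiniteDimensional F W]
  [FiniteDimensional F V]
  {T : Ten F E W V} {b₁ : LinearMap.BilinForm F E} {b₂ : LinearMap.BilinForm F W}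
  {B : LinearMap.BilinForm F V} {M : Subgroup (V ≃ₗ[F] V)} {e e' : E} {g : V ≃ₗ[F] V}

namespace S24

variable [Finite F] (h : S24 T b₁ b₂ B M e e' g)
include h

theorem exists_mu : ∃ μ : F, ∀ d ∈ dd T e g, nn T b₁ e g (T.t e' d) = μ • T.t e d := by
  let ν := T.cL (b₁ e') ∘ₗ nn T b₁ e g ∘ₗ T.t e'
  have h1 : ∀ w ∈ dd T e g, nn T b₁ e g (T.t e' w) = T.t e (ν w) ∧ ν w ∈ dd T e g := fun w hw => by
    obtain ⟨w', h1, h2⟩ := h.nu hw
    simp [ν, h2, h.pair, h1]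
  by_contra hc
  obtain ⟨u, hu⟩ := exists_notMem_span_of_ne (α := ν.restrict fun w hw => (h1 w hw).2)
    fun c h2 => hc ⟨c, fun d hd => by
      have : ν d = c • d := congrArg Subtype.val (LinearMap.congr_fun h2 ⟨d, hd⟩)
      rw [(h1 d hd).1, this, map_smul]⟩
  by_cases h0 : b₂ u u = 0
  · have : u = 0 := Subtype.ext (h.aniso u.2 h0)
    simp [this] at hu
  obtain ⟨μ, hμ⟩ := h.eigen u.2 h0
  exact hu (Submodule.mem_span_singleton.2 ⟨μ, Subtype.ext (by simp [ν, hμ, h.pair])⟩)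

theorem nn_symm (x y : V) : B x (nn T b₁ e g y) = B y (nn T b₁ e g x) := by
  rw [← h.form_nn (g_nn y) (g_nn x), ← h.form_nn (g_nn x) (g_nn y), h.sym₂]

theorem th_symm (x y : W) : b₂ (th T b₁ e g x) y = b₂ (th T b₁ e g y) x := by
  have := h.nn_symm (T.t e x) (T.t e y)
  rw [alt_swap h.alt (T.t e x), alt_swap h.alt (T.t e y), h.form_t,
    h.form_t, ph_nn, ph_nn] at this
  linear_combination this

theorem sing_of {v : V} (hv : v ≠ 0) {ψ : W} (h1 : g v = T.t e ψ) (h2 : b₂ ψ ψ = 0) {p p' z : W}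
    (h3 : v = T.t e p + T.t e' p') (h4 : b₂ p z = 0) (h5 : b₂ p' z = 0) (h6 : z ∉ dd T e g)
    (h7 : z ∉ b₂.orthogonal (dd T e g)) : b₂ z z = 0 := by
  by_contra hz
  have hr : T.rt (rf b₂ hz) ∈ M := h.tm_mem (A := 1) (by simp) (rf_isom h.sym₂ hz)
  have hk := M.mul_mem (M.mul_mem h.crit.mem hr) (M.inv_mem h.crit.mem)
  by_cases hc : g * T.rt (rf b₂ hz) * g⁻¹ ∈ T.grp
  · refine h7 fun d hd => by_contra fun h8 => h6 ?_
    have h9 : rf b₂ hz d ∈ dd T e g := h.ker_th.le (by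
      rw [LinearMap.mem_ker, ← ph_nn, ← T.rt_t, h.comm_rf hz hc, h.nn_of_mem hd]; simp)
    have := Submodule.sub_mem _ hd h9
    rwa [rf_apply, sub_sub_cancel, Submodule.smul_mem_iff _
      (div_ne_zero (mul_ne_zero h.two h8) hz)] at this
  have h' := h.of_crit (k := g * T.rt (rf b₂ hz) * g⁻¹) ⟨hk, hc, fun g' a b =>
    (h.crit.max g' a b).trans (by rw [h.finrank_inf, h.dim_dd]; exact h.two_le_overlap hz)⟩
  have h8 : T.rt (rf b₂ hz) v = v := by simp [h3, rf_of_perp hz h4, rf_of_perp hz h5]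
  have := h'.aniso (u := ψ) (mem_dd.2 ⟨ψ, by simp [← h1, h8]⟩) h2
  simp [this, hv] at h1

theorem step {μ : F} (hμ : ∀ d ∈ dd T e g, nn T b₁ e g (T.t e' d) = μ • T.t e d) {w : W}
    (hw : b₂ (th T b₁ e g w) w ≠ 0) {w₁ : W} (a1 : w₁ ∈ b₂.orthogonal (dd T e g)) (a2 : w₁ ≠ 0)
    (a3 : b₂ (th T b₁ e g w) w₁ = 0) : μ ≠ 0 ∧ b₂ w₁ w₁ = -(μ * b₂ (th T b₁ e g w) w) ∧
      b₂ (th T b₁ e g w) (th T b₁ e g w) = μ * b₂ (th T b₁ e g w) w := by
  have hs := h.sym₂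
  have h' := h.of_crit (Crit.inv h.crit)
  have hθ : th T b₁ e g w ∈ b₂.orthogonal (dd T e g) := h.range_th.le ⟨w, rfl⟩
  set ψ := ph T b₁ e (g (T.t e w)) with hψ
  have h1 : g (nn T b₁ e g (T.t e w)) = T.t e ψ := g_nn _
  have h2 : b₂ ψ ψ = -b₂ (th T b₁ e g w) w := by
    rw [h.form_nn h1 h1, alt_swap h.alt, h.form_t, ph_nn]
  have h3 : ψ ∉ dd T e g⁻¹ := fun h3 => hw (by
    have : nn T b₁ e g (T.t e w) ∈ LinearMap.range (T.t e) := by
      simpa [← h1] using mem_dd.1 h3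
    rw [← ph_nn, h.ph_of_mem h.ee this]; simp)
  obtain ⟨d, d1, φ, d2, d3⟩ : ∃ d ∈ dd T e g, ∃ φ, g (T.t e d) = T.t e φ ∧
      b₂ (φ + ψ) (φ + ψ) = 0 := by
    obtain ⟨x, x1, x2, x3⟩ := H60.exists_sing (Q := b₂.toQuadraticMap) (dd T e g⁻¹ ⊔ F ∙ ψ)
      (by rw [Submodule.finrank_sup_span_singleton h3, h'.dim_dd])
    obtain ⟨y, y1, _, y2, rfl⟩ := Submodule.mem_sup.1 x1
    obtain ⟨c, rfl⟩ := Submodule.mem_span_singleton.1 y2
    have hc : c ≠ 0 := by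
      rintro rfl
      exact x2 (by simpa using h'.aniso y1 (by simpa using x3))
    obtain ⟨d, hd⟩ := mem_dd.1 (Submodule.smul_mem _ c⁻¹ y1)
    have h4 : g (T.t e d) = T.t e (c⁻¹ • y) := by simp [hd]
    refine ⟨d, mem_dd.2 ⟨_, h4.symm⟩, _, h4, ?_⟩
    have : c⁻¹ • y + ψ = c⁻¹ • (y + c • ψ) := by simp [smul_smul, hc]
    rw [this, map_smul, map_smul, LinearMap.smul_apply, show b₂ (y + c • ψ) (y + c • ψ) = 0 from x3]
    simp
  have h4 : b₂ ψ φ = 0 := by simp [h.form_nn d2 h1, h.eq, h.ee]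
  have h5 : μ * b₂ φ φ = b₂ d d := by
    simpa [h.eq, h.pair] using h.form_nn (v := T.t e' d) d2 (φ := μ • φ) (by simp [hμ d d1, d2])
  have h6 : b₂ φ φ = b₂ (th T b₁ e g w) w := by
    simp only [map_add, LinearMap.add_apply, h4, hs φ ψ, h2] at d3
    linear_combination d3
  have d4 : b₂ d d ≠ 0 := fun h0 => hw (by
    have : φ = 0 := by simpa [h.aniso d1 h0, T.t_eq_zero, h.ne] using d2.symm
    simp [← h6, this])
  rw [← h6, h5]
  refine ⟨by rintro rfl; exact d4 (by simp [← h5]), ?_⟩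
  obtain ⟨k, hk⟩ := h.mem_L (v := nn T b₁ e g (T.t e w) - T.t e' (th T b₁ e g w))
    (by simp [ph_nn, h.pair])
  rw [eq_sub_iff_add_eq] at hk
  have k1 : k ∈ b₂.orthogonal (dd T e g) := fun y hy => by
    have := h.nn_symm (T.t e' y) (T.t e w)
    rw [hμ y hy, ← hk] at this
    simpa [h.eq, h.ee, h.pair, h.alt₁.self_eq_zero] using this
  obtain ⟨d₂, e1, e2, e3⟩ := exists_mem_notMem_ker [b₂ d] (W := dd T e g) (Z := ⊥)
    (by simp [h.dim_dd])
  replace e3 : b₂ d d₂ = 0 := e3 _ (by simp)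
  have e4 : b₂ d₂ d₂ ≠ 0 := fun h0 => e2 (h.aniso e1 h0)
  have p1 : ∀ x ∈ dd T e g, ∀ y ∈ b₂.orthogonal (dd T e g), b₂ x y = 0 := fun x hx y hy => hy x hx
  have p2 : ∀ x ∈ dd T e g, ∀ y ∈ b₂.orthogonal (dd T e g), b₂ y x = 0 := fun x hx y hy =>
    hs x y ▸ hy x hx
  obtain ⟨t, ht⟩ : ∃ t, t * b₂ d d + b₂ k w₁ = 0 := ⟨-b₂ k w₁ / b₂ d d, by field_simp; ring⟩
  have h7 : ∀ a : F, a • d₂ + t • d ≠ 0 → a * a * b₂ d₂ d₂ + t * t * b₂ d d + b₂ w₁ w₁ = 0 := by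
    intro a ha
    have m1 : a • d₂ + t • d ∈ dd T e g :=
      add_mem (Submodule.smul_mem _ _ e1) (Submodule.smul_mem _ _ d1)
    have := h.sing_of (v := T.t e d + nn T b₁ e g (T.t e w)) (fun h0 => hw (by
        have := congrArg (ph T b₁ e) h0
        simp only [map_add, ph_t, h.ee, zero_smul, zero_add, ph_nn, map_zero] at this
        simp [this])) (ψ := φ + ψ) (by simp [d2, h1]) d3 (p := d + k) (p' := th T b₁ e g w)
      (z := a • d₂ + t • d + w₁) (by rw [← hk, map_add, add_assoc])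
      (by simpa [e3, p1 d d1 w₁ a1, p2 d₂ e1 k k1, p2 d d1 k k1] using ht)
      (by simp [p2 d₂ e1 _ hθ, p2 d d1 _ hθ, a3])
      (fun h0 => a2 (h.nondeg ((Submodule.add_mem_iff_right _ m1).1 h0) a1))
      fun h0 => ha (h.nondeg m1 ((Submodule.add_mem_iff_left _ a1).1 h0))
    simp only [map_add, map_smul, LinearMap.add_apply, LinearMap.smul_apply, smul_eq_mul, e3,
      hs d₂ d, p1 d d1 w₁ a1, p1 d₂ e1 w₁ a1, p2 d d1 w₁ a1, p2 d₂ e1 w₁ a1] at this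
    linear_combination this
  have h8 : ∀ a : F, a ≠ 0 → a * a * b₂ d₂ d₂ + t * t * b₂ d d + b₂ w₁ w₁ = 0 := fun a ha =>
    h7 a fun h0 => by simpa [hs d₂ d, e3, ha, e4] using congrArg (b₂ d₂) h0
  have h9 : t = 0 := by_contra fun h0 => e4 (by
    have := h7 0 fun h1 => by simpa [h0, d4] using congrArg (b₂ d) h1
    linear_combination h8 1 one_ne_zero - this)
  have h10 : b₂ w₁ w₁ = -b₂ d₂ d₂ := by
    have := h8 1 one_ne_zero
    rw [h9] at this
    linear_combination this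
  have h11 : ∀ a : F, a ≠ 0 → a = b₂ d d ∨ a = -b₂ d d := fun a ha => by
    have q1 := h8 a ha
    have q2 := h8 _ d4
    exact mul_self_eq_mul_self_iff.1 (mul_right_cancel₀ e4 (by linear_combination q1 - q2))
  have h12 : b₂ d₂ d₂ = b₂ d d := (h11 _ e4).resolve_right fun h0 => d4 (by
    have := h.aniso (add_mem d1 e1) (by simp [e3, hs d₂ d, h0])
    simpa [e3] using congrArg (b₂ d) this)
  refine ⟨by rw [h10, h12], by_contra fun h0 => ?_⟩
  obtain ⟨s, q1⟩ : ∃ s : F, s * s * b₂ d d + b₂ (th T b₁ e g w) (th T b₁ e g w) = 0 := by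
    by_cases q1 : b₂ (th T b₁ e g w) (th T b₁ e g w) = 0
    · exact ⟨0, by simp [q1]⟩
    · exact ⟨1, by simp [(h11 _ q1).resolve_left h0]⟩
  obtain ⟨c, hc⟩ := Submodule.mem_span_singleton.1 (h.minus.mem_span hs
    (u := s • d + th T b₁ e g w) (u' := d₂ + w₁) (fun q2 => hw (by
      have : th T b₁ e g w = 0 := h.nondeg (by
        rw [eq_neg_of_add_eq_zero_right q2]; exact neg_mem (Submodule.smul_mem _ _ d1)) hθ
      simp [this]))
    (by simpa [p1 d d1 _ hθ, p2 d d1 _ hθ, mul_assoc] using q1)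
    (by simp [p1 d₂ e1 w₁ a1, p2 d₂ e1 w₁ a1, h10])
    (by simp [e3, p1 d d1 w₁ a1, p2 d₂ e1 _ hθ, a3]))
  simpa [hs d₂ d, e3, p1 d₂ e1 _ hθ, p1 d₂ e1 w₁ a1, e4.symm] using congrArg (b₂ d₂) hc

theorem of_eigen {z₀ : W} (h0 : z₀ ≠ 0) (h1 : z₀ ∈ dd T e g)
    {μ : F} (hμ : nn T b₁ e g (T.t e' z₀) = μ • T.t e z₀) {w : W} (hw0 : w ≠ 0)
    (hw : w ∈ b₂.orthogonal (dd T e g)) {l : F} (hl : th T b₁ e g w = l • w) (u : W) :
    th T b₁ e g (th T b₁ e g u) = -μ • th T b₁ e g u := by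
  have hl0 : l ≠ 0 := by
    rintro rfl
    exact hw0 (h.nondeg (h.ker_th.le (by simpa using hl)) hw)
  obtain ⟨x, hx, -, x1⟩ := h.inA_one e 1
  obtain ⟨x', hx', x2⟩ := h.exists_x (-l⁻¹)
  have y1 : ∀ w ∈ dd T e g, (x' * x).symm (T.t e w) = T.t e w := fun w hw => by
    rw [LinearEquiv.symm_apply_eq]; simp [x1, x2, h.ee, h.nn_of_mem hw]
  have y2 : (x' * x) (nn T b₁ e g (T.t e w)) = l • T.t e w := by
    simp only [LinearEquiv.mul_apply, x1, x2, ph_nn, hl, map_add, map_smul, h.nn_nn]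
    match_scalars <;> field_simp <;> ring
  have y3 : g ((x' * x).symm (T.t e w)) ∈ LinearMap.range (T.t e) := by
    rw [← Submodule.smul_mem_iff _ hl0, ← map_smul, ← map_smul, ← y2,
      LinearEquiv.symm_apply_apply, g_nn]
    exact ⟨_, rfl⟩
  have hk := M.mul_mem h.crit.mem (M.inv_mem (M.mul_mem hx' hx))
  obtain ⟨A, C, hAC⟩ : g * (x' * x)⁻¹ ∈ T.grp := by
    by_contra hc
    have h2 : T.t e w ∉ LinearMap.range (T.t e) ⊓ (LinearMap.range (T.t e)).comap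
      (g : V →ₗ[F] V) := fun h2 => hw0 (h.nondeg h2.2 hw)
    refine absurd (h.crit.max _ hk hc) (not_le.2 (Nat.lt_of_succ_le ?_))
    rw [Nat.succ_eq_add_one, ← Submodule.finrank_sup_span_singleton h2]
    refine Submodule.finrank_mono (sup_le ?_
      ((Submodule.span_singleton_le_iff_mem _ _).2 ⟨⟨w, rfl⟩, y3⟩))
    rintro _ ⟨⟨w, rfl⟩, h4⟩
    refine ⟨⟨w, rfl⟩, ?_⟩
    change g ((x' * x).symm (T.t e w)) ∈ LinearMap.range (T.t e)
    rwa [y1 w h4]
  have h2 : ∀ v ∈ LinearMap.range (T.t e), (g * (x' * x)⁻¹) v ∈ LinearMap.range (T.t e) := by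
    rintro _ ⟨w', rfl⟩
    have h3 : (g * (x' * x)⁻¹) (T.t e w) ∈ LinearMap.range (T.t e) := y3
    rw [hAC, Ten.tm_t, range_t_eq] at h3 ⊢
    exact T.swap.t_mem_LS _ ((T.swap.t_mem_LS_iff (C.map_ne_zero_iff.2 hw0)).1 h3)
  obtain ⟨s, hs⟩ := h.zc h.ne (M.mul_mem (M.mul_mem (M.inv_mem hk) hx) hk) fun v => by
    generalize g * (x' * x)⁻¹ = k at h2
    rw [LinearEquiv.mul_apply, LinearEquiv.mul_apply, x1]
    simpa using inv_mem_of_le h2 _ ⟨ph T b₁ e (k v), rfl⟩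
  have h3 : ∀ u, (x' * x) (nn T b₁ e g u) = s • T.t e (ph T b₁ e ((x' * x) u)) := fun u => by
    have := hs ((x' * x) u)
    rw [LinearEquiv.mul_apply, LinearEquiv.mul_apply, x1] at this
    simpa [nn] using this
  have h4 := h3 (T.t e' z₀)
  have h5 := h3 (T.t e w)
  have h8 := congrArg (ph T b₁ e) (h3 (T.t e u))
  rw [y2] at h5
  simp only [LinearEquiv.mul_apply, x1, x2, hμ, map_add, map_smul, ph_t, h.ee, h.pair, ph_nn, hl,
    h.nn_of_mem h1, zero_smul, smul_zero, map_zero, add_zero, zero_add, one_smul,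
    smul_smul, h.nn_nn] at h4 h5 h8
  have h6 := smul_left_injective F (T.t_eq_zero.not.2 (not_or.2 ⟨h.ne, h0⟩)) h4
  have h7 := smul_left_injective F (T.t_eq_zero.not.2 (not_or.2 ⟨h.ne, hw0⟩)) h5
  field_simp at h7
  have h9 : -μ = l := by linear_combination -h7 - h6
  rw [h9, ← sub_eq_zero]
  have := congrArg (l • ·) h8
  simp only [smul_add, smul_smul, mul_neg, mul_inv_cancel₀ hl0, smul_zero] at this
  linear_combination (norm := module) -this

theorem false : False := by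
  have hs := h.sym₂
  obtain ⟨μ, hμ⟩ := h.exists_mu
  have hθ : ∀ w, th T b₁ e g w ∈ b₂.orthogonal (dd T e g) := fun w => h.range_th.le ⟨w, rfl⟩
  have hU : finrank F (b₂.orthogonal (dd T e g)) = 2 := by
    rw [LinearMap.BilinForm.finrank_orthogonal h.nd₂, h.dim_dd, h.four]
  obtain ⟨w, hw⟩ : ∃ w, b₂ (th T b₁ e g w) w ≠ 0 := by
    by_contra hc
    push Not at hc
    obtain ⟨z, z1, z2⟩ := h.exists_perp
    obtain ⟨y, rfl⟩ := h.range_th.ge z1
    exact z2 (h.nd₂.1 _ fun x => polar_zero (B := b₂ ∘ₗ th T b₁ e g) h.two h.th_symm (hc y) (hc x)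
      (hc _))
  obtain ⟨w₁, a1, a2, a3⟩ := exists_mem_notMem_ker [b₂ (th T b₁ e g w)]
    (W := b₂.orthogonal (dd T e g)) (Z := ⊥) (by simp [hU])
  replace a3 : b₂ (th T b₁ e g w) w₁ = 0 := a3 _ (by simp)
  obtain ⟨b1, b2, b3⟩ := h.step hμ hw a1 a2 a3
  obtain ⟨y, hy⟩ := h.range_th.ge (add_mem (hθ w) a1)
  have u1 : b₂ (th T b₁ e g y) (th T b₁ e g y) = 0 := by simp [hy, a3, hs w₁, b2, b3]
  have u2 : th T b₁ e g y ≠ 0 := fun h0 => mul_ne_zero b1 hw (by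
    have := congrArg (b₂ (th T b₁ e g w)) (hy.symm.trans h0)
    simpa [a3, b3] using this)
  have u3 : b₂ (th T b₁ e g y) y = 0 := by_contra fun h0 => mul_ne_zero
    (h.step hμ h0 (hθ y) u2 u1).1 h0 (by simpa [u1] using (h.step hμ h0 (hθ y) u2 u1).2.2.symm)
  obtain ⟨l, hl⟩ : ∃ l : F, l • th T b₁ e g y = th T b₁ e g (th T b₁ e g y) := by
    rw [← Submodule.mem_span_singleton]
    by_contra hc
    have h6 : (F ∙ th T b₁ e g y) ⊔ (F ∙ th T b₁ e g (th T b₁ e g y)) = b₂.orthogonal (dd T e g) :=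
      Submodule.eq_of_le_of_finrank_le (by simp [hθ])
        (by rw [Submodule.finrank_sup_span_singleton hc, finrank_span_singleton u2, hU])
    refine u2 (h.ker_th.ge ?_)
    rw [← LinearMap.BilinForm.orthogonal_orthogonal h.nd₂ (fun x y hxy => by rwa [hs]) (dd T e g),
      ← h6]
    intro x hx
    rw [← Submodule.span_insert] at hx
    obtain ⟨a, b, rfl⟩ := Submodule.mem_span_pair.1 hx
    change b₂ _ _ = 0
    simp [u3, h.th_symm (th T b₁ e g y) y, u1]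
  obtain ⟨z₀, z1, z2, -⟩ := exists_mem_notMem_ker [] (W := dd T e g) (Z := ⊥) (by simp [h.dim_dd])
  have h7 := h.of_eigen z2 z1 (hμ z₀ z1) u2 (hθ y) hl.symm w
  rw [← h.th_symm, h7] at b3
  simp only [map_smul, LinearMap.smul_apply, smul_eq_mul] at b3
  exact mul_ne_zero h.two (mul_ne_zero b1 hw) (by linear_combination -b3)

end S24

theorem max24 [Fintype F] (h : SpOM T b₁ b₂ B M) (hE : finrank F E = 2) (hW : finrank F W = 4)
    (hm : NoPlane b₂) (hne : ¬ M ≤ T.grp) (g : V ≃ₗ[F] V) (hg : ∀ x y, B (g x) (g y) = B x y) :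
    g ∈ M := by
  by_cases hnt : ∀ e, e ≠ 0 → ∀ α, InA T b₁ M e α → ∃ c : F, ∀ w, α w = c • w
  swap
  · push Not at hnt
    obtain ⟨e, he, α, h1, h2⟩ := hnt
    obtain ⟨u, u1, u2, u3⟩ := h.exists_full_of_nonscalar (by omega) (Or.inl hW.ge) he h1
      (by simpa using h2)
    exact mem_of_forall_fullSp h.nd h.alt (h.all_full (by omega) he u1 u2 u3) g hg
  have : Nontrivial E := Module.nontrivial_of_finrank_pos (R := F) (by omega)
  obtain ⟨e, he⟩ := exists_ne (0 : E)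
  obtain ⟨e', he'⟩ := h.exists_partner he
  obtain ⟨k, c⟩ := exists_crit (LinearMap.range (T.t e)) hne
  exact (S24.false ⟨⟨h, by omega, hnt⟩, hE, hW, hm, he', c⟩).elim

end

open Matrix Cfsg Cfsg.Geo
open scoped Kronecker

/-- **`Sp₂(q) ∘ GO₄⁻(q)` is maximal in `Sp₈(q)`** (conjunct (8) of S5822). -/
theorem sp8_tensor_minus {F : Type*} [Field F] [Fintype F] :
    Odd (Fintype.card F) → ∀ (e : (Fin 4 ⊕ Fin 4) ≃ Fin 2 × Fin 4) (P : Matrix.GeneralLinearGroup (Fin 4 ⊕ Fin 4) F) (f₁ : (Fin 2 → F) → (Fin 2 → F) → F) (f₂ : (Fin 4 → F) → (Fin 4 → F) → F), Cfsg.Geo.IsSymplecticForm f₁ → Cfsg.Geo.IsSymmetricForm f₂ → ¬ Cfsg.Geo.IsPlusTypeOn (fun v : Fin 4 → F => f₂ v v) ⊤ → Cfsg.Geo.IsTensorFormStructure id (Cfsg.sympForm 4 F) f₁ f₂ e P → Cfsg.Geo.IsMaximalIn (Cfsg.spGL 4 F) (Cfsg.Geo.tensorProductSubgroup 2 4 e P ⊓ Cfsg.spGL 4 F) := by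
  intro hodd e P f₁ f₂ hf₁ hf₂ hmin hT
  obtain ⟨c, hc, hT⟩ := hT
  have nd := bilinOf_nondegenerate hf₁.bilinear hf₁.nondegenerate
  have h : SpO (matTen e P) (c • bilinOf hf₁.bilinear) (bilinOf hf₂.bilinear) (spForm 4 F) :=
    ⟨two_ne_zero_of_odd hodd, ⟨fun x hx => nd.1 x fun y => by simpa [hc] using hx y,
      fun x hx => nd.2 x fun y => by simpa [hc] using hx y⟩,
      fun x => by rw [LinearMap.smul_apply, LinearMap.smul_apply,
        show bilinOf hf₁.bilinear x x = 0 from hf₁.alternating x, smul_zero],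
      bilinOf_nondegenerate hf₂.bilinear hf₂.nondegenerate, hf₂.symm, spForm_nondeg, spForm_alt,
      fun x x' y y' => by
        rw [matTen_t, matTen_t, ← H54.sympForm_eq, hT, formOfGram_kronecker (by simp),
          formOfGram_bilin hf₁.bilinear, formOfGram_bilin hf₂.bilinear, ← mul_assoc]; rfl⟩
  have hm : NoPlane (bilinOf hf₂.bilinear) := fun U hU h2 =>
    hmin ⟨U, le_top, fun w hw => hU w hw w hw, by simp [h2]⟩
  refine isMaximalIn_of_toLE (· ∈ (matTen e P).grp)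
    (fun e => ∀ u v, spForm 4 F (e u) (e v) = spForm 4 F u v) mem_spGL_iff
    (fun g => by rw [Subgroup.mem_inf, mem_tensorProductSubgroup_iff, mem_spGL_iff]) ?_
    fun M hM hle g hg hns => max24 ⟨h, hM, hle⟩ (by simp) (by simp) hm fun h4 => hns (h4 hg)
  obtain ⟨v, hv⟩ := exists_ne (0 : Fin 4 ⊕ Fin 4 → F)
  obtain ⟨x, hx⟩ := exists_form_ne_zero spForm_nondeg hv
  have h0 : (spForm 4 F).flip v v = 0 := spForm_alt.self_eq_zero v
  exact ⟨_, isom_of_sp spForm_alt (v := v) (c := 1) fun y => by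
    rw [LinearEquiv.transvection.apply h0]; simp, (matTen e P).tv_notMem (by simp) (by simp) h0
      (fun h4 => hx (LinearMap.congr_fun h4 x)) hv⟩

end H56
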