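/- The centres of the Sylow `p`-subgroups of symplectic groups in odd characteristic. -/
import Cfsg.Agent.H56.AutMain
import Cfsg.Agent.H54.SpAutTv

set_option autoImplicit false

namespace H56

open H54 Matrix
open _root_.Module (finrank)

variable {l : Type*} [Fintype l] [DecidableEq l] {F : Type*} [Field F]

/-- The unipotent radical of a point stabiliser in the symplectic group. -/
def spRG (w : l ⊕ l → F) : Subgroup (Matrix.symplecticGroup l F) where
  carrier := {g | g • w = w ∧ ∀ x, spB l F w x = 0 → ∃ c : F, g • x = x + c • w}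
  mul_mem' {a b} ha hb := ⟨by rw [mul_smul, hb.1, ha.1], fun x hx => by
    obtain ⟨c, hc⟩ := hb.2 x hx
    obtain ⟨d, hd⟩ := ha.2 x hx
    exact ⟨d + c, by rw [mul_smul, hc, smul_add, hd, sp_smul_smul, ha.1, add_smul, add_assoc]⟩⟩
  one_mem' := ⟨one_smul _ _, fun x _ => ⟨0, by simp⟩⟩
  inv_mem' {a} ha := ⟨inv_smul_eq_iff.2 ha.1.symm, fun x hx => by
    obtain ⟨c, hc⟩ := ha.2 x hx
    exact ⟨-c, by rw [inv_smul_eq_iff, smul_add, hc, sp_smul_smul, ha.1]; simp⟩⟩

theorem spRG_pow (p : ℕ) [hp : Fact p.Prime] [CharP F p] {w : l ⊕ l → F} (hw : w ≠ 0)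
    {g : Matrix.symplecticGroup l F} (hg : g ∈ spRG w) : g ^ p ^ 2 = 1 := by
  have : Nonempty (l ⊕ l) := by
    by_contra h
    exact hw (funext fun i => (h ⟨i⟩).elim)
  have h3 : ((g : Matrix (l ⊕ l) (l ⊕ l) F) - 1) ^ 3 = 0 := Matrix.ext_iff_mulVec.2 fun x => by
    have k : ∀ y, ((g : Matrix (l ⊕ l) (l ⊕ l) F) - 1) *ᵥ y = g • y - y := fun y => by
      rw [Matrix.sub_mulVec, Matrix.one_mulVec, sp_smul_def]
    obtain ⟨c, hc⟩ := hg.2 _ (spB_smul_sub_of_fix hg.1 x)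
    rw [pow_three, ← Matrix.mulVec_mulVec, ← Matrix.mulVec_mulVec, k x, k (g • x - x), hc,
      add_sub_cancel_left, k, sp_smul_smul, hg.1, sub_self, Matrix.zero_mulVec]
  have h1 := sub_pow_char_pow_of_commute p 2 (Commute.one_right (g : Matrix (l ⊕ l) (l ⊕ l) F))
  rw [pow_eq_zero_of_le (by have := hp.out.two_le; nlinarith) h3, one_pow, eq_comm,
    sub_eq_zero] at h1
  exact Subtype.ext (by simpa using h1)

theorem sp_sylCen [Finite F] [Nonempty l] (h2 : (2 : F) ≠ 0) {p : ℕ} [Fact p.Prime] [CharP F p]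
    {Z : Subgroup (Matrix.symplecticGroup l F)} (h : IsSylCen p Z) :
    ∃ w, w ≠ 0 ∧ ∀ g, g ∈ Z ↔ ∃ c, g = tv w c := by
  obtain ⟨U, hU⟩ := h
  obtain ⟨w, hw, hw0⟩ := U.isPGroup'.exists_fixed_point_of_prime_dvd_card_of_fixed_point
    (l ⊕ l → F) (by
      have := Fintype.ofFinite F
      rw [Nat.card_eq_fintype_card, Fintype.card_fun]
      exact dvd_pow ((CharP.cast_eq_zero_iff F p _).1 (FiniteField.cast_card_eq_zero F))
        Fintype.card_ne_zero) (a := 0) (fun g => smul_zero g.1)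
  replace hw : ∀ u ∈ U, u • w = w := fun u hu => hw ⟨u, hu⟩
  replace hw0 : w ≠ 0 := hw0.symm
  have hR : spRG w ≤ U := by
    have h1 : IsPGroup p (spRG w) := fun g => ⟨2, Subtype.ext (spRG_pow p hw0 g.2)⟩
    have h3 := U.is_maximal' (h1.to_sup_of_normal_left' U.isPGroup'
      (Subgroup.le_normalizer_iff.2 fun k hk g hg => ⟨by
        rw [mul_smul, mul_smul, hw _ (inv_mem hk), hg.1, hw k hk], fun x hx => by
          obtain ⟨c, hc⟩ := hg.2 (k⁻¹ • x) (by rw [← spB_smul k, smul_inv_smul, hw k hk, hx])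
          exact ⟨c, by rw [mul_smul, mul_smul, hc, smul_add, smul_inv_smul, sp_smul_smul,
            hw k hk]⟩⟩)) le_sup_right
    exact h3 ▸ le_sup_left
  refine ⟨w, hw0, fun g => (hU g).trans ⟨fun ⟨hg, hc⟩ => ?_, ?_⟩⟩
  · obtain ⟨f, hf⟩ := exists_spB_eq hw0 1
    have hfw : spB l F f w = -1 := by rw [spB_swap, hf]
    have key : ∀ a, spB l F w a = 0 → g • a = a := fun a ha => by
      have h1 : sr w a 1 ∈ spRG w := ⟨by simp [sr_smul ha, ha, spB_self], fun x hx =>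
        ⟨spB l F x a, by rw [sr_smul ha, spB_swap x w, hx]; simp⟩⟩
      have h3 := sr_conj g w a 1
      rw [hc _ (hR h1), mul_inv_cancel_right, hw g hg] at h3
      have h4 := congrArg (· • f) h3
      have ha' : spB l F w (g • a) = 0 := by rw [← hw g hg, spB_smul, ha]
      simp only [sr_smul ha, sr_smul ha', hfw, one_mul] at h4
      generalize g • a = a' at h4
      have h5 : a' - a = (spB l F f a' - spB l F f a) • w := by
        linear_combination (norm := module) h4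
      have h6 := congrArg (spB l F f) h5
      rw [map_sub, map_smul, hfw] at h6
      have h7 : spB l F f a' - spB l F f a = 0 := by
        apply mul_left_cancel₀ h2
        simp only [smul_eq_mul] at h6
        linear_combination h6
      rwa [h7, zero_smul, sub_eq_zero] at h5
    refine eq_tv_of_smul_sub_mem hw0 fun f' _ => ?_
    by_contra hd
    obtain ⟨e, he, hde⟩ := exists_ortho_ne_zero spB_nondegenerate spB_isAlt.isRefl _ hd
    refine hde ?_
    rw [spB_swap, spB_smul_sub_of_fix (key e (he w (Submodule.mem_span_singleton_self w))),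
      neg_zero]
  · rintro ⟨c, rfl⟩
    refine ⟨hR ⟨tv_smul_self w c, fun x _ => ⟨_, tv_smul w c x⟩⟩, fun u hu => ?_⟩
    rw [eq_comm, ← mul_inv_eq_iff_eq_mul, tv_conj, hw u hu]

theorem exists_smul_of_tv_mul (hl : 2 ≤ Fintype.card l) {u v w : l ⊕ l → F} {a b c : F}
    (hv : v ≠ 0) (ha : a ≠ 0) (hb : b ≠ 0) {z : Matrix.symplecticGroup l F}
    (hz : z ∈ Subgroup.center _) (h : tv u a * tv v b * z = tv w c) : ∃ s : F, u = s • v := by
  have hz1 : z = 1 := by
    rcases mem_center_sp_iff.1 hz with rfl | rfl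
    · rfl
    obtain ⟨x, hx, hx0⟩ := (Submodule.ne_bot_iff _).1 (LinearMap.ker_ne_bot_of_finrank_lt
      (f := LinearMap.pi fun i : Fin 3 => (spB l F).flip (![u, v, w] i)) (by simp; omega))
    have h1 : spB l F x u = 0 := congrFun hx 0
    have h2 : spB l F x v = 0 := congrFun hx 1
    have h3 : spB l F x w = 0 := congrFun hx 2
    have h4 := congrArg (· • x) h
    simp only [mul_smul, spNegOne_smul, smul_neg, tv_smul_of_ortho _ h1, tv_smul_of_ortho _ h2,
      tv_smul_of_ortho _ h3] at h4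
    obtain ⟨i, hi⟩ := Function.ne_iff.1 hx0
    have h5 : (2 : F) = 0 := by
      have : -x i = x i := congrFun h4 i
      exact (mul_eq_zero.1 (by linear_combination -this : 2 * x i = 0)).resolve_right hi
    exact sp_ext fun y => by
      rw [spNegOne_smul, one_smul]
      exact funext fun j => by simp only [Pi.neg_apply]; linear_combination -(y j) * h5
  rw [hz1, mul_one] at h
  by_contra hs
  push Not at hs
  have key : ∀ {u v : l ⊕ l → F} {a b : F}, (∀ s : F, u ≠ s • v) → a ≠ 0 →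
      ∀ g : Matrix.symplecticGroup l F, (∀ x, spB l F x v = 0 → g • x = tv u a • x) →
      (∀ x, ∃ t : F, g • x = x + t • w) → ∃ s : F, u = s • w := by
    intro u v a b hs ha g h1 h2
    obtain ⟨x, hx, hux⟩ := exists_ortho_ne_zero spB_nondegenerate spB_isAlt.isRefl
      (Submodule.span F {v}) (x := u) fun hm => by
        obtain ⟨s, hs'⟩ := Submodule.mem_span_singleton.1 hm
        exact hs s hs'.symm
    obtain ⟨t, ht⟩ := h2 x
    have h3 : spB l F x u ≠ 0 := by rwa [spB_swap, neg_ne_zero]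
    rw [h1 x (by rw [spB_swap, hx v (Submodule.mem_span_singleton_self v), neg_zero]), tv_smul,
      add_right_inj] at ht
    exact ⟨(a * spB l F x u)⁻¹ * t, by rw [mul_smul, ← ht, inv_smul_smul₀ (mul_ne_zero ha h3)]⟩
  have hs' : ∀ s : F, v ≠ s • u := fun s e => by
    have : s ≠ 0 := left_ne_zero_of_smul (e ▸ hv)
    exact hs s⁻¹ (by rw [e, inv_smul_smul₀ this])
  obtain ⟨s, hs1⟩ := key (b := b) hs ha (tv w c)
    (fun x hx => by rw [← h, mul_smul, tv_smul_of_ortho _ hx]) fun x => ⟨_, tv_smul w c x⟩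
  obtain ⟨t, ht1⟩ := key (b := b) hs' (neg_ne_zero.2 hb) (tv w c)⁻¹
    (fun x hx => by rw [← h, _root_.mul_inv_rev, mul_smul, tv_inv, tv_inv, tv_smul_of_ortho _ hx])
    fun x => ⟨_, by rw [tv_inv, tv_smul]⟩
  have : t ≠ 0 := left_ne_zero_of_smul (ht1 ▸ hv)
  exact hs (s * t⁻¹) (by rw [hs1, ht1, mul_smul, inv_smul_smul₀ this])

/-- In `PSp` of odd characteristic, no two distinct Sylow centres are "collinear". -/
theorem psp_sylCen_eq [Finite F] (hl : 2 ≤ Fintype.card l) (h2 : (2 : F) ≠ 0) {p : ℕ}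
    [Fact p.Prime] [CharP F p]
    {X Y Z : Subgroup (Matrix.symplecticGroup l F ⧸ Subgroup.center (Matrix.symplecticGroup l F))}
    (hX : IsSylCen p X) (hY : IsSylCen p Y) (hZ : IsSylCen p Z) {x y} (hx : x ∈ X) (hx1 : x ≠ 1)
    (hy : y ∈ Y) (hy1 : y ≠ 1) (hxy : x * y ∈ Z) : X = Y := by
  have : Nonempty l := Fintype.card_pos_iff.1 (by omega)
  have hk : ∀ (g : Matrix.symplecticGroup l F) (k : ℕ), g ^ p ^ k = 1 →
      QuotientGroup.mk' (Subgroup.center _) g = 1 → g = 1 := fun g k hg h1 => by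
    have hz := (QuotientGroup.eq_one_iff g).1 h1
    rcases mem_center_sp_iff.1 hz with rfl | rfl
    · rfl
    have hp : p ≠ 2 := by
      rintro rfl
      exact h2 (by simpa using CharP.cast_eq_zero F 2)
    obtain ⟨j, hj⟩ := ((Fact.out : p.Prime).odd_of_ne_two hp).pow (n := k)
    rwa [hj, pow_succ, pow_mul, pow_two, spNegOne_mul_self, one_pow, one_mul] at hg
  obtain ⟨X, hX', rfl⟩ := hX.exists_eq_map (QuotientGroup.mk'_surjective _) hk
  obtain ⟨Y, hY', rfl⟩ := hY.exists_eq_map (QuotientGroup.mk'_surjective _) hk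
  obtain ⟨Z, hZ', rfl⟩ := hZ.exists_eq_map (QuotientGroup.mk'_surjective _) hk
  obtain ⟨u, hu0, hu⟩ := sp_sylCen h2 hX'
  obtain ⟨v, hv0, hv⟩ := sp_sylCen h2 hY'
  obtain ⟨w, -, hw⟩ := sp_sylCen h2 hZ'
  obtain ⟨x, hx, rfl⟩ := hx
  obtain ⟨y, hy, rfl⟩ := hy
  obtain ⟨z, hz, e⟩ := hxy
  obtain ⟨a, rfl⟩ := (hu x).1 hx
  obtain ⟨b, rfl⟩ := (hv y).1 hy
  obtain ⟨c, rfl⟩ := (hw z).1 hz
  obtain ⟨z, hz, e⟩ := (QuotientGroup.mk'_eq_mk' _).1 (e.trans (map_mul _ _ _).symm).symm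
  obtain ⟨s, rfl⟩ := exists_smul_of_tv_mul hl hv0 (fun h => hx1 (by rw [h, tv_zero, map_one]))
    (fun h => hy1 (by rw [h, tv_zero, map_one])) hz e
  have hs : s ≠ 0 := left_ne_zero_of_smul hu0
  congr 1
  ext g
  rw [hu, hv]
  exact ⟨fun ⟨c, hc⟩ => ⟨_, hc.trans (tv_smul_left _ _ _)⟩, fun ⟨c, hc⟩ =>
    ⟨(s ^ 2)⁻¹ * c, by rw [tv_smul_left, mul_inv_cancel_left₀ (pow_ne_zero 2 hs), hc]⟩⟩

open QuadraticMap in
/-- In `PΩ` of Witt index at least three there are "collinear" Sylow centres. -/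
theorem pOm_exists_sylCen [Finite F] {V : Type*} [AddCommGroup V] [Module F V]
    [FiniteDimensional F V] {Q : QuadraticForm F V} (hQ : Q.polarBilin.Nondegenerate)
    (h7 : 7 ≤ finrank F V) (p : ℕ) [Fact p.Prime] [CharP F p] :
    ∃ X Y Z : Subgroup (POm Q), IsSylCen p X ∧ IsSylCen p Y ∧ IsSylCen p Z ∧ X ≠ Y ∧
      ∃ x ∈ X, ∃ y ∈ Y, x ≠ 1 ∧ y ≠ 1 ∧ x * y ∈ Z := by
  have h5 : 5 ≤ finrank F V := by omega
  obtain ⟨e, f, h⟩ := H58.exists_frame_of_lt hQ (k := 3) (by omega)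
  have hi := h.linearIndependent_e
  have hp : ∀ i j, polar Q (e i) (e j) = 0 := h.ee
  have i1 : LinearIndependent F ![e 0, e 1] := by
    convert hi.comp ![0, 1] (by decide) using 1
    ext i; fin_cases i <;> rfl
  have i2 : LinearIndependent F ![e 0, e 2] := by
    convert hi.comp ![0, 2] (by decide) using 1
    ext i; fin_cases i <;> rfl
  have hL := isTL_span i1 (h.qe 0) (h.qe 1) (hp 0 1)
  have hM := isTL_span i2 (h.qe 0) (h.qe 2) (hp 0 2)
  have hne : Submodule.span F {e 0, e 1} ≠ Submodule.span F {e 0, e 2} := fun e' => by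
    obtain ⟨a, b, hab⟩ := Submodule.mem_span_pair.1 (e' ▸ right_mem_span_pair (e 0) (e 1))
    have := congrArg (fun x => polar Q x (f 1)) hab
    simp [h.ef] at this
  have hA : Adj Q (Submodule.span F {e 0, e 1}) (Submodule.span F {e 0, e 2}) :=
    ⟨hne, ⟨e 0, i1.ne_zero 0, left_mem_span_pair _ _, left_mem_span_pair _ _⟩,
      fun x hx y hy => polar_of_mem_span_pair hx
        (H60.pc (polar_of_mem_span_pair hy (hp _ _) (hp _ _)))
        (H60.pc (polar_of_mem_span_pair hy (hp _ _) (hp _ _)))⟩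
  have hE := EG_le_commutator hQ (not_isExc_of_finrank (by omega))
  obtain ⟨x, hx, hx1⟩ := hL.exists_mem_XG_ne_one hQ
  obtain ⟨y, hy, hy1⟩ := hM.exists_mem_XG_ne_one hQ
  obtain ⟨-, N, hN, hxy⟩ := hA.mul hQ hL hM hx hy
  have hx' := hE (hL.XG_le_EG hQ hx)
  have hy' := hE (hM.XG_le_EG hQ hy)
  have k : ∀ {L} (_ : IsTL Q L) {x} (_ : x ∈ XG Q L) (hx' : x ∈ commutator (O Q)) {M} (_ : IsTL Q M)
      {y : commutator (O Q)} (_ : (y : O Q) ∈ XG Q M),
      (QuotientGroup.mk ⟨x, hx'⟩ : POm Q) = QuotientGroup.mk y → x = y :=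
    fun hL _ hx _ _ hM _ hy e => eq_of_pow_char p (k := 1) (by simpa using hL.pow_char hQ p hx)
      (by simpa using hM.pow_char hQ p hy) (by
        simpa [inv_mul_eq_iff_eq_mul] using (pOm_mk_eq_iff hQ h5 _ _).1 e)
  refine ⟨PXG Q _, PXG Q _, PXG Q N, (isSylCen_pOm_iff hQ h5 _).2 ⟨_, hL, rfl⟩,
    (isSylCen_pOm_iff hQ h5 _).2 ⟨_, hM, rfl⟩, (isSylCen_pOm_iff hQ h5 _).2 ⟨_, hN, rfl⟩,
    fun e' => hne ?_, _, ⟨⟨x, hx'⟩, hx, rfl⟩, _, ⟨⟨y, hy'⟩, hy, rfl⟩,
    fun e' => hx1 (k hL hx hx' hL (y := 1) (one_mem _) e'),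
    fun e' => hy1 (k hM hy hy' hM (y := 1) (one_mem _) e'),
    ⟨⟨x * y, mul_mem hx' hy'⟩, hxy, rfl⟩⟩
  obtain ⟨y, hy, e''⟩ := e'.le ⟨⟨x, hx'⟩, hx, rfl⟩
  exact hL.eq_of_le hM (hL.le_of_mem_XG hQ hx hx1 (k hL hx hx' hM hy e''.symm ▸ hy))

end H56
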