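import Cfsg.Agent.Base

/-! The Moebius function of the submodule lattice of a finite semisimple `F[X]`-module. -/

set_option autoImplicit false
set_option linter.unusedSectionVars false

namespace H56.St

open Polynomial Module Finset UniqueFactorizationMonoid

variable {F : Type*} [Field F] [DecidableEq F]

/-- the value attached to a multiset of polynomials -/
noncomputable def vl (q : ℕ) (s : Multiset F[X]) : ℂ :=
  ∏ f ∈ s.toFinset, (-1 : ℂ) ^ ((f.natDegree - 1) * s.count f) *
    (q : ℂ) ^ (f.natDegree * s.count f * (s.count f - 1) / 2)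

theorem vl_cons (q : ℕ) (f : F[X]) (s : Multiset F[X]) :
    vl q (f ::ₘ s) = (-1) ^ (f.natDegree - 1) * (q ^ f.natDegree) ^ s.count f * vl q s := by
  have h1 : vl q s = ∏ g ∈ insert f s.toFinset, (-1 : ℂ) ^ ((g.natDegree - 1) * s.count g) *
      (q : ℂ) ^ (g.natDegree * s.count g * (s.count g - 1) / 2) :=
    prod_subset (subset_insert _ _) fun g _ hg => by
      simp [Multiset.count_eq_zero.2 (mt Multiset.mem_toFinset.2 hg)]
  have h2 : ∀ d m : ℕ, d * (m + 1) * (m + 1 - 1) / 2 = d * m + d * m * (m - 1) / 2 := fun d m => by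
    rcases m with _ | m
    · simp
    · rw [← Nat.mul_add_div two_pos]
      congr 1
      simp only [Nat.add_sub_cancel]
      ring
  rw [h1, vl, Multiset.toFinset_cons, ← mul_prod_erase _ _ (mem_insert_self f _),
    ← mul_prod_erase _ _ (mem_insert_self f _), Multiset.count_cons_self, h2,
    prod_congr rfl fun g hg => by rw [Multiset.count_cons_of_ne (ne_of_mem_erase hg)]]
  rw [mul_add_one, pow_add, pow_add, pow_mul (q : ℂ)]
  ring

section mod

variable (F) (M : Type*) [AddCommGroup M] [Module F M] [Module F[X] M] [IsScalarTower F F[X] M]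
  [Finite M] {N : Type*} [AddCommGroup N] [Module F N] [Module F[X] N] [IsScalarTower F F[X] N]
  [Finite N]

/-- the characteristic polynomial of `X` -/
noncomputable def cp : F[X] := (Algebra.lsmul F F M (X : F[X])).charpoly

theorem cp_monic : (cp F M).Monic := LinearMap.charpoly_monic _

theorem cp_deg : (cp F M).natDegree = finrank F M := LinearMap.charpoly_natDegree _

variable {M} in
theorem cp_smul (m : M) : cp F M • m = 0 := by
  have := (Algebra.lsmul F F M (X : F[X])).aeval_self_charpoly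
  rw [aeval_algHom_apply, aeval_X_left_apply] at this
  exact DFunLike.congr_fun this m

variable {F M}

theorem cp_congr (e : M ≃ₗ[F[X]] N) : cp F M = cp F N := by
  rw [cp, ← (e.restrictScalars F).charpoly_conj, cp]
  congr 1
  ext m
  simp [LinearEquiv.conj_apply]

theorem cp_prod : cp F (M × N) = cp F M * cp F N := by
  rw [cp, cp, cp, ← LinearMap.charpoly_prodMap]
  rfl

theorem simple_cp [IsSimpleModule F[X] M] :
    Irreducible (cp F M) ∧ Nonempty (M ≃ₗ[F[X]] F[X] ⧸ Ideal.span {cp F M}) := by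
  obtain ⟨I, hI, ⟨e⟩⟩ := isSimpleModule_iff_quot_maximal.1 ‹_›
  obtain ⟨g, rfl⟩ := (IsPrincipalIdealRing.principal I).principal
  change M ≃ₗ[F[X]] F[X] ⧸ Ideal.span {g} at e
  have h1 : g ∣ cp F M := by
    have := congrArg e (cp_smul F (e.symm 1))
    rw [map_smul, e.apply_symm_apply, map_zero, ← Algebra.algebraMap_eq_smul_one] at this
    exact Ideal.mem_span_singleton.1 (Ideal.Quotient.eq_zero_iff_mem.1 this)
  have h2 : Associated g (cp F M) := associated_of_dvd_of_natDegree_le h1 (cp_monic F M).ne_zero (by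
    rw [cp_deg, (e.restrictScalars F).finrank_eq, finrank_quotient_span_eq_natDegree])
  have h3 : g ≠ 0 := fun h => (cp_monic F M).ne_zero (zero_dvd_iff.1 (h ▸ h1))
  exact ⟨h2.irreducible ((Ideal.span_singleton_prime h3).1 hI.isPrime).irreducible,
    ⟨e.trans (Submodule.quotEquivOfEq _ _ (Ideal.span_singleton_eq_span_singleton.2 h2))⟩⟩

theorem card_hom_simple [IsSimpleModule F[X] M] [IsSimpleModule F[X] N] :
    Nat.card (M →ₗ[F[X]] N) = if cp F N = cp F M then Nat.card N else 1 := by
  split_ifs with h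
  · obtain ⟨-, ⟨e⟩⟩ := simple_cp (F := F) (M := M)
    rw [Nat.card_congr (e.congrLeft N F[X]).toEquiv]
    refine Nat.card_eq_of_bijective (fun φ => φ 1) ⟨fun φ ψ h => ?_, fun a => ?_⟩
    · refine Submodule.linearMap_qext _ (LinearMap.ext_ring h)
    · refine ⟨Submodule.liftQ _ (LinearMap.toSpanSingleton F[X] N a) (Ideal.span_le.2 ?_), one_smul _ a⟩
      rintro _ rfl
      exact h ▸ cp_smul F a
  · refine Nat.card_eq_one_iff_exists.2 ⟨0, fun φ => (φ.bijective_or_eq_zero).resolve_left fun hφ => h ?_⟩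
    exact (cp_congr (LinearEquiv.ofBijective φ hφ)).symm

/-- an internal direct sum -/
noncomputable def sumEquiv {R : Type*} [Ring R] [Module R M] {A U Y : Submodule R M} (h : Disjoint A U)
    (e : A ⊔ U = Y) : (A × U) ≃ₗ[R] Y :=
  (LinearEquiv.ofInjective (A.subtype.coprod U.subtype) (LinearMap.ker_eq_bot.1 (by
    rw [LinearMap.ker_coprod_of_disjoint_range _ _ (by simpa using h)]; simp))).trans
    (LinearEquiv.ofEq _ _ (by rw [LinearMap.range_coprod]; simpa using e))

theorem sumEquiv_val {R : Type*} [Ring R] [Module R M] {A U Y : Submodule R M} (h : Disjoint A U)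
    (e : A ⊔ U = Y) (p : A × U) : (sumEquiv h e p : M) = p.1 + p.2 := rfl

theorem cp_sup {A U Y : Submodule F[X] M} (h : Disjoint A U) (e : A ⊔ U = Y) :
    cp F Y = cp F A * cp F U := by
  rw [← cp_congr (sumEquiv h e), cp_prod]

theorem nf_sup {A U Y : Submodule F[X] M} [IsSimpleModule F[X] A] (h : Disjoint A U) (e : A ⊔ U = Y) :
    normalizedFactors (cp F Y) = cp F A ::ₘ normalizedFactors (cp F U) := by
  rw [cp_sup h e, normalizedFactors_mul (cp_monic F A).ne_zero (cp_monic F U).ne_zero,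
    normalizedFactors_irreducible simple_cp.1, (cp_monic F A).normalize_eq_self, Multiset.singleton_add]

theorem cp_bot : cp F (⊥ : Submodule F[X] M) = 1 :=
  (cp_monic F _).natDegree_eq_zero.1 (by rw [cp_deg]; exact finrank_zero_of_subsingleton)

theorem card_hom [IsSemisimpleModule F[X] M] [IsSimpleModule F[X] N] (U : Submodule F[X] M) :
    Nat.card (U →ₗ[F[X]] N) = Nat.card N ^ (normalizedFactors (cp F U)).count (cp F N) := by
  induction U using WellFoundedLT.induction with
  | ind U ih =>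
  rcases IsSemisimpleModule.eq_bot_or_exists_simple_le U with rfl | ⟨B, hB, _⟩
  · rw [cp_bot, normalizedFactors_one]; simp
  obtain ⟨U', h1, h2⟩ := IsModularLattice.exists_disjoint_and_sup_eq hB
  have h3 : U' < U := (h2 ▸ le_sup_right : U' ≤ U).lt_of_ne fun e =>
    (isSimpleModule_iff_isAtom.1 ‹_›).1 (h1.eq_bot_of_le (e ▸ hB))
  rw [← Nat.card_congr ((sumEquiv h1 h2).congrLeft N F[X]).toEquiv,
    ← Nat.card_congr (LinearMap.coprodEquiv ℕ).toEquiv, Nat.card_prod, ih U' h3, card_hom_simple,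
    nf_sup h1 h2, Multiset.count_cons]
  split_ifs <;> simp [pow_succ']

theorem card_compl {R : Type*} [Ring R] [Module R M] {A U Y : Submodule R M} (h : Disjoint A U)
    (e : A ⊔ U = Y) : Nat.card (U →ₗ[R] A) = Nat.card {W : Submodule R M // Disjoint A W ∧ A ⊔ W = Y} := by
  have k : ∀ φ : U →ₗ[R] A, Disjoint A (LinearMap.range (U.subtype + A.subtype ∘ₗ φ)) ∧
      A ⊔ LinearMap.range (U.subtype + A.subtype ∘ₗ φ) = Y := fun φ => by
    refine ⟨Submodule.disjoint_def.2 ?_, e ▸ le_antisymm (sup_le le_sup_left ?_)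
      (sup_le le_sup_left fun u hu => ?_)⟩
    · rintro _ ha ⟨u, rfl⟩
      obtain rfl : u = 0 :=
        Subtype.ext (Submodule.disjoint_def.1 h u ((A.add_mem_iff_left (φ u).2).1 ha) u.2)
      exact map_zero _
    · rintro _ ⟨u, rfl⟩
      exact add_mem (Submodule.mem_sup_right u.2) (Submodule.mem_sup_left (φ u).2)
    · exact (Submodule.add_mem_iff_left _ (Submodule.mem_sup_left (φ ⟨u, hu⟩).2)).1
        (Submodule.mem_sup_right ⟨⟨u, hu⟩, rfl⟩)
  refine Nat.card_eq_of_bijective (fun φ => ⟨_, k φ⟩) ⟨fun φ ψ h1 => LinearMap.ext fun u => ?_, ?_⟩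
  · obtain ⟨v, hv⟩ := (congrArg Subtype.val h1).le ⟨u, rfl⟩
    change (v : M) + ψ v = u + φ u at hv
    obtain rfl : v = u := sub_eq_zero.1 (Subtype.ext (Submodule.disjoint_def.1 h _ (by
      rw [Submodule.coe_sub, sub_eq_sub_iff_add_eq_add.2 (hv.trans (add_comm _ _))]
      exact sub_mem (φ u).2 (ψ v).2) (v - u).2))
    exact Subtype.ext (add_left_cancel hv).symm
  · rintro ⟨W, h1, h2⟩
    let φ : U →ₗ[R] A := -(LinearMap.fst R A W ∘ₗ (sumEquiv h1 h2).symm.toLinearMap ∘ₗ
      Submodule.inclusion (e ▸ le_sup_right))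
    refine ⟨φ, Subtype.ext (eq_of_le_of_inf_le_of_sup_le (z := A) ?_ ?_ ?_)⟩
    · rintro _ ⟨u, rfl⟩
      have := sumEquiv_val h1 h2 ((sumEquiv h1 h2).symm (Submodule.inclusion (e ▸ le_sup_right) u))
      rw [LinearEquiv.apply_symm_apply, Submodule.coe_inclusion] at this
      change (u : M) + -((sumEquiv h1 h2).symm (Submodule.inclusion (e ▸ le_sup_right) u)).1 ∈ W
      nth_rewrite 1 [this]
      rw [add_neg_cancel_comm]
      exact Subtype.property _
    · rw [h1.symm.eq_bot]; exact bot_le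
    · rw [sup_comm, h2, sup_comm, (k φ).2]

variable [Finite F]

/-- the Moebius function -/
noncomputable def nu (U : Submodule F[X] M) : ℂ :=
  (-1) ^ finrank F U * vl (Nat.card F) (normalizedFactors (cp F U))

theorem nu_bot : nu (⊥ : Submodule F[X] M) = 1 := by
  rw [nu, ← cp_deg, cp_bot, normalizedFactors_one]; simp [vl]

theorem nu_sup [IsSemisimpleModule F[X] M] {A U Y : Submodule F[X] M} [IsSimpleModule F[X] A]
    (h : Disjoint A U) (e : A ⊔ U = Y) : nu Y = -(Nat.card (U →ₗ[F[X]] A) * nu U) := by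
  have h1 : finrank F Y = (cp F A).natDegree - 1 + 1 + finrank F U := by
    rw [← cp_deg, cp_sup h e, (cp_monic F A).natDegree_mul (cp_monic F U), cp_deg F U,
      Nat.sub_add_cancel (simple_cp (F := F) (M := A)).1.natDegree_pos]
  rw [nu, nu, nf_sup h e, vl_cons, card_hom, natCard_eq_pow_finrank (K := F) (V := A), h1, ← cp_deg F A]
  have h2 : ((-1 : ℂ) ^ ((cp F A).natDegree - 1)) ^ 2 = 1 := by rw [← pow_mul, mul_comm, pow_mul]; simp
  push_cast
  rw [pow_add, pow_add]
  linear_combination (-((-1) ^ finrank F U * ((Nat.card F : ℂ) ^ (cp F A).natDegree) ^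
    (normalizedFactors (cp F U)).count (cp F A) * vl (Nat.card F) (normalizedFactors (cp F U)))) * h2

open Classical in
theorem sum_nu [IsSemisimpleModule F[X] M] [Fintype (Submodule F[X] M)] {W : Submodule F[X] M}
    (hW : W ≠ ⊥) : ∑ U with U ≤ W, nu U = 0 := by
  obtain ⟨A, hA, _⟩ := (IsSemisimpleModule.eq_bot_or_exists_simple_le W).resolve_left hW
  have hat := isSimpleModule_iff_isAtom.1 ‹_›
  rw [← sum_filter_add_sum_filter_not _ (A ≤ ·), ← sum_fiberwise_of_maps_to
    (s := filter (fun U => ¬ A ≤ U) _) (t := filter (A ≤ ·) (filter (· ≤ W) univ)) (g := (A ⊔ ·))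
    (fun U hU => by simp at hU ⊢; exact ⟨hA, hU.1⟩), ← sum_add_distrib]
  refine sum_eq_zero fun Y hY => ?_
  simp only [mem_filter, mem_univ, true_and] at hY
  obtain ⟨U, h1, h2⟩ := IsModularLattice.exists_disjoint_and_sup_eq hY.2
  rw [nu_sup h1 h2, card_compl h1 h2, neg_add_eq_zero, Nat.card_eq_fintype_card, Fintype.card_subtype,
    ← nsmul_eq_mul, ← sum_const]
  refine sum_congr (Finset.ext fun V => ?_) fun V hV => ?_
  · simp only [mem_filter, mem_univ, true_and, hat.not_le_iff_disjoint]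
    exact ⟨fun h => ⟨⟨le_sup_right.trans (h.2.le.trans hY.1), h.1⟩, h.2⟩, fun h => ⟨h.1.2, h.2⟩⟩
  · simp only [mem_filter, mem_univ, true_and, hat.not_le_iff_disjoint] at hV
    have := mul_left_cancel₀ (cp_monic F A).ne_zero ((cp_sup h1 h2).symm.trans (cp_sup hV.1.2 hV.2))
    rw [nu, nu, ← cp_deg, ← cp_deg, this]

end mod

end H56.St
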