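import Cfsg.Agent.H57.AltChar

/-! The alternating sum over flags is the Moebius function. -/

set_option autoImplicit false
set_option linter.unusedSectionVars false

namespace H56.St

open Finset Equiv

variable {L : Type*} [PartialOrder L] [OrderBot L] [Fintype L] (r : L → ℕ)

/-- decreasing flags below `W` of type `μ` -/
def Fl {m : ℕ} (μ : Fin m → ℕ) (W : L) (Φ : Fin m → L) : Prop :=
  Antitone Φ ∧ ∀ i, Φ i ≤ W ∧ r (Φ i) = ∑ k with i < k, μ k

/-- the number of flags -/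
noncomputable def NF {m : ℕ} (μ : Fin m → ℕ) (W : L) : ℕ := Nat.card {Φ // Fl r μ W Φ}

theorem NF_zero (μ : Fin 0 → ℕ) (W : L) : NF r μ W = 1 :=
  Nat.card_eq_one_iff_exists.2 ⟨⟨Fin.elim0, fun i => i.elim0, fun i => i.elim0⟩,
    fun _ => Subtype.ext (Subsingleton.elim _ _)⟩

theorem Fl_cons {m : ℕ} (μ : Fin (m + 1) → ℕ) (W U : L) (Φ : Fin m → L) :
    Fl r μ W (Fin.cons U Φ) ↔ (U ≤ W ∧ r U = ∑ k : Fin m, μ k.succ) ∧ Fl r (fun k => μ k.succ) U Φ := by
  have h0 : ∑ k with (0 : Fin (m + 1)) < k, μ k = ∑ k : Fin m, μ k.succ := by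
    simp [sum_filter, Fin.sum_univ_succ]
  have h1 : ∀ i : Fin m, ∑ k with i.succ < k, μ k = ∑ k with i < k, μ k.succ := fun i => by
    simp [sum_filter, Fin.sum_univ_succ]
  simp only [Fl, Fin.forall_fin_succ, Fin.cons_zero, Fin.cons_succ, h0, h1]
  refine ⟨fun ⟨a, b, c⟩ => ⟨b, fun i j h => a (Fin.succ_le_succ_iff.2 h), fun i =>
    ⟨a (Fin.zero_le i.succ), (c i).2⟩⟩, fun ⟨a, b, c⟩ => ⟨fun i j h => ?_, a, fun i =>
    ⟨(c i).1.trans a.1, (c i).2⟩⟩⟩
  rcases Fin.eq_zero_or_eq_succ i with rfl | ⟨i, rfl⟩ <;>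
    rcases Fin.eq_zero_or_eq_succ j with rfl | ⟨j, rfl⟩
  exacts [le_rfl, (c j).1, absurd h (by simp), b (Fin.succ_le_succ_iff.1 h)]

open Classical in
theorem NF_succ {m : ℕ} (μ : Fin (m + 1) → ℕ) (W : L) :
    NF r μ W = ∑ U with U ≤ W ∧ r U = ∑ k : Fin m, μ k.succ, NF r (fun k => μ k.succ) U := by
  simp only [NF, Nat.card_eq_fintype_card, Fintype.card_subtype, card_filter]
  rw [← (Fin.consEquiv fun _ => L).sum_comp, Fintype.sum_prod_type, sum_filter]
  refine sum_congr rfl fun U _ => ?_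
  simp only [Fin.consEquiv, coe_fn_mk, Fl_cons]
  split_ifs with h <;> simp [h]

/-- the type of a permutation -/
def dl {m : ℕ} (t : ℕ) (κ : Perm (Fin m)) (i : Fin m) : ℕ :=
  1 + i - κ i + if (κ i : ℕ) = 0 then t else 0

theorem sum_dl {m : ℕ} (t : ℕ) {κ : Perm (Fin (m + 1))} (h : ∀ i, (κ i : ℕ) ≤ 1 + i) :
    ∑ i, dl t κ i = m + 1 + t := by
  simp only [dl, sum_add_distrib]
  rw [H57.sum_sub_perm (ν := fun _ => 1) (by simp) h, Equiv.sum_comp κ fun j => if (j : ℕ) = 0 then t else 0]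
  simp

open Classical in
/-- the alternating sum -/
noncomputable def GS (m t : ℕ) (W : L) : ℂ := ∑ κ : Perm (Fin m),
  if ∀ i, (κ i : ℕ) ≤ 1 + i then ((Perm.sign κ : ℤ) : ℂ) * NF r (dl t κ) W else 0

open Classical in
theorem GS_succ (m t : ℕ) (W : L) : GS r (m + 2) t W = ∑ U with U ≤ W ∧ r U = m + 1, GS r (m + 1) 0 U -
    ∑ U with U ≤ W ∧ r U = m + 1 + (t + 1), GS r (m + 1) (t + 1) U := by
  have s1 : ∀ j : Fin (m + 1), (swap 0 (Fin.succ 0) j.succ).val = if j.val = 0 then 0 else j.val + 1 :=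
    fun j => by
    split_ifs with h
    · rw [show j = 0 from Fin.ext h, swap_apply_right]; rfl
    · rw [swap_apply_of_ne_of_ne j.succ_ne_zero fun e => h (by rw [Fin.succ_inj.1 e]; rfl)]; rfl
  rw [GS, ← Perm.decomposeFin.symm.sum_comp, Fintype.sum_prod_type, Fin.sum_univ_succ, Fin.sum_univ_succ,
    sum_eq_zero (s := univ (α := Fin m)) fun p _ => sum_eq_zero fun e _ => if_neg fun h => by
      simpa using h 0, add_zero, sub_eq_add_neg]
  simp only [GS]
  rw [sum_comm (s := filter _ _), sum_comm (s := filter _ _), ← sum_neg_distrib]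
  congr 1 <;> refine sum_congr rfl fun e _ => ?_
  · have h1 : (∀ i, (Perm.decomposeFin.symm (0, e) i : ℕ) ≤ 1 + i) ↔ ∀ i, (e i : ℕ) ≤ 1 + i := by
      simp [Fin.forall_fin_succ, ← add_assoc]
    have h2 : (fun k : Fin (m + 1) => dl t (Perm.decomposeFin.symm (0, e)) k.succ) = dl 0 e :=
      funext fun k => by simp [dl, ← add_assoc]
    simp only [h1]
    split_ifs with h
    · rw [NF_succ, congrArg (∑ k, · k) h2, h2, sum_dl 0 h, ← mul_sum]
      simp [Perm.decomposeFin.symm_sign]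
    · simp
  · have h1 : (∀ i, (Perm.decomposeFin.symm (Fin.succ 0, e) i : ℕ) ≤ 1 + i) ↔ ∀ i, (e i : ℕ) ≤ 1 + i := by
      rw [Fin.forall_fin_succ]
      simp only [Perm.decomposeFin_symm_apply_zero, Perm.decomposeFin_symm_apply_succ, s1]
      refine (and_iff_right (by simp)).trans (forall_congr' fun i => ?_)
      rw [Fin.val_succ]
      split_ifs <;> omega
    have h2 : (fun k : Fin (m + 1) => dl t (Perm.decomposeFin.symm (Fin.succ 0, e)) k.succ) =
        dl (t + 1) e := funext fun k => by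
      simp only [dl, Perm.decomposeFin_symm_apply_succ, s1, Fin.val_succ]
      by_cases h : (e k : ℕ) = 0
      · simp only [h, if_true]; omega
      · simp only [h, if_false, Nat.add_one_ne_zero]; omega
    simp only [h1]
    split_ifs with h
    · rw [NF_succ, congrArg (∑ k, · k) h2, h2, sum_dl _ h, ← mul_sum]
      simp [Perm.decomposeFin.symm_sign]
    · simp

variable {r}

open Classical in
theorem GS_eq (hr : StrictMono r) (h0 : r ⊥ = 0) {ν : L → ℂ} (n0 : ν ⊥ = 1)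
    (hν : ∀ W, W ≠ ⊥ → ∑ U with U ≤ W, ν U = 0) :
    ∀ m t W, r W = m + 1 + t → GS r (m + 1) t W = (-1) ^ m * ∑ U with U ≤ W ∧ r U ≤ m, ν U := by
  have e1 : ∀ {U W}, U ≤ W → r W ≤ r U → U = W := fun h h' =>
    h.eq_or_lt.resolve_right fun e => (hr e).not_ge h'
  have e2 : ∀ m W, r W = m + 1 → ∑ U with U ≤ W ∧ r U ≤ m, ν U = -ν W := fun m W h => by
    rw [eq_neg_iff_add_eq_zero, ← hν W (by rintro rfl; omega), add_comm, ← sum_insert (by simp [h])]
    refine sum_congr (Finset.ext fun U => ?_) fun _ _ => rfl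
    simp only [mem_insert, mem_filter, mem_univ, true_and]
    refine ⟨fun h => h.elim Eq.le And.left, fun h' => or_iff_not_imp_left.2 fun e => ⟨h', ?_⟩⟩
    have := hr (h'.lt_of_ne e)
    omega
  intro m
  induction m with
  | zero =>
    intro t W _
    have : ∀ k, filter (fun U => U ≤ W ∧ r U = k) univ = {⊥} → filter (fun U => U ≤ W ∧ r U ≤ 0) univ = {⊥} →
      ∑ U with U ≤ W ∧ r U = k, (1 : ℕ) = 1 ∧ ∑ U with U ≤ W ∧ r U ≤ 0, ν U = 1 := fun k a b => by
      rw [a, b]; simp [n0]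
    have h : ∀ U, r U ≤ 0 ↔ U = ⊥ := fun U => ⟨fun h => (e1 bot_le (h0 ▸ h)).symm, fun h => h ▸ h0.le⟩
    obtain ⟨a, b⟩ := this 0 (by ext U; simp [← Nat.le_zero, h]; rintro rfl; exact bot_le)
      (by ext U; simp only [h]; simp; rintro rfl; exact bot_le)
    rw [GS, Fintype.sum_subsingleton (ι := Perm (Fin 1)) _ 1, if_pos (by simp), NF_succ, b]
    simp only [NF_zero, univ_eq_empty, sum_empty, a]
    simp
  | succ m ih =>
    intro t W hW
    rw [GS_succ, sum_congr rfl fun U hU => by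
      rw [ih 0 U (mem_filter.1 hU).2.2, e2 m U (mem_filter.1 hU).2.2],
      sum_eq_single_of_mem (f := GS r (m + 1) (t + 1)) W (by simp; omega) fun U hU hne => absurd
        (e1 (mem_filter.1 hU).2.1 (by rw [(mem_filter.1 hU).2.2]; omega)) hne, ih _ W (by omega),
      ← mul_sum, ← sum_filter_add_sum_filter_not (filter (fun U => U ≤ W ∧ r U ≤ m + 1) _) (r · = m + 1),
      filter_filter, filter_filter, sum_neg_distrib,
      filter_congr (p := fun U => (U ≤ W ∧ r U ≤ m + 1) ∧ r U = m + 1) (q := fun U => U ≤ W ∧ r U = m + 1)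
        fun U _ => by constructor <;> intro h <;> simp_all,
      filter_congr (p := fun U => (U ≤ W ∧ r U ≤ m + 1) ∧ ¬ r U = m + 1) (q := fun U => U ≤ W ∧ r U ≤ m)
        fun U _ => ⟨fun h => ⟨h.1.1, by omega⟩, fun h => ⟨⟨h.1, by omega⟩, by omega⟩⟩]
    ring

open Classical in
theorem GS_top (hr : StrictMono r) (h0 : r ⊥ = 0) {ν : L → ℂ} (n0 : ν ⊥ = 1)
    (hν : ∀ W, W ≠ ⊥ → ∑ U with U ≤ W, ν U = 0) (W : L) : GS r (r W) 0 W = (-1) ^ r W * ν W := by
  rcases h : r W with _ | m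
  · obtain rfl : W = ⊥ := by_contra fun e => by
      have := hr (bot_lt_iff_ne_bot.2 e); omega
    simp [GS, NF_zero, n0]
  · rw [GS_eq hr h0 n0 hν m 0 W h]
    have : ∑ U with U ≤ W ∧ r U ≤ m, ν U = -ν W := by
      rw [eq_neg_iff_add_eq_zero, ← hν W (by rintro rfl; omega), add_comm, ← sum_insert (by simp [h])]
      refine sum_congr (Finset.ext fun U => ?_) fun _ _ => rfl
      simp only [mem_insert, mem_filter, mem_univ, true_and]
      refine ⟨fun h => h.elim Eq.le And.left, fun h' => or_iff_not_imp_left.2 fun e => ⟨h', ?_⟩⟩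
      have := hr (h'.lt_of_ne e)
      omega
    rw [this]; ring

end H56.St
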