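import Cfsg.Agent.H56.StA
import Cfsg.Agent.H56.StB

/-! Fixed cosets of a parabolic subgroup of `GL_n(q)` are invariant flags. -/

set_option autoImplicit false
set_option linter.unusedSectionVars false

namespace H56.St

open Polynomial Module Finset Matrix H57

variable {F : Type*} [Field F]

section flags

variable {V : Type*} [AddCommGroup V] [Module F V] [FiniteDimensional F V]

theorem exists_mv {U U' W : Submodule F V} (h : U ≤ W) (h' : U' ≤ W) (e : finrank F U = finrank F U') :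
    ∃ g : V ≃ₗ[F] V, U.map g.toLinearMap = U' ∧ ∀ v, g v - v ∈ W := by
  obtain ⟨D, d1, d2⟩ := IsModularLattice.exists_disjoint_and_sup_eq h
  obtain ⟨D', d1', d2'⟩ := IsModularLattice.exists_disjoint_and_sup_eq h'
  obtain ⟨C, hC⟩ := W.exists_isCompl
  have k : finrank F D = finrank F D' := by
    have a := (sumEquiv d1 d2).finrank_eq
    have b := (sumEquiv d1' d2').finrank_eq
    rw [finrank_prod] at a b
    omega
  let g0 : W ≃ₗ[F] W := (sumEquiv d1 d2).symm ≪≫ₗ ((LinearEquiv.ofFinrankEq _ _ e).prodCongr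
    (LinearEquiv.ofFinrankEq _ _ k)) ≪≫ₗ sumEquiv d1' d2'
  let g : V ≃ₗ[F] V := (W.prodEquivOfIsCompl C hC).symm ≪≫ₗ (g0.prodCongr (.refl F C)) ≪≫ₗ
    W.prodEquivOfIsCompl C hC
  have hg : ∀ (w : W) (c : C), g (w + c) = g0 w + c := fun w c => by
    have : (W.prodEquivOfIsCompl C hC).symm (w + c) = (w, c) := (LinearEquiv.symm_apply_eq _).2 rfl
    simp [g, this]
  refine ⟨g, Submodule.eq_of_le_of_finrank_eq ?_ ((g.finrank_map_eq U).trans e), fun v => ?_⟩
  · rintro _ ⟨u, hu, rfl⟩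
    have h1 : (sumEquiv d1 d2).symm ⟨u, h hu⟩ = (⟨u, hu⟩, 0) :=
      (LinearEquiv.symm_apply_eq _).2 (Subtype.ext (add_zero u).symm)
    have h2 := hg ⟨u, h hu⟩ 0
    simp only [Submodule.coe_zero, add_zero, g0, LinearEquiv.trans_apply, h1, LinearEquiv.prodCongr_apply,
      map_zero] at h2
    rw [LinearEquiv.coe_coe, h2]
    exact add_mem (Subtype.property _) U'.zero_mem
  · obtain ⟨w, hw, c, hc, rfl⟩ := Submodule.mem_sup.1 (hC.sup_eq_top.ge (Submodule.mem_top (x := v)))
    rw [hg ⟨w, hw⟩ ⟨c, hc⟩, add_sub_add_right_eq_sub]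
    exact sub_mem (Subtype.property _) hw

theorem exists_flag {m : ℕ} {Φ Ψ : Fin m → Submodule F V} (h : Antitone Φ) (h' : Antitone Ψ)
    (e : ∀ i, finrank F (Φ i) = finrank F (Ψ i)) :
    ∃ g : V ≃ₗ[F] V, ∀ i, (Φ i).map g.toLinearMap = Ψ i := by
  induction m with
  | zero => exact ⟨.refl F V, fun i => i.elim0⟩
  | succ m ih =>
    obtain ⟨g, hg⟩ := ih (Φ := fun i => Φ i.castSucc) (Ψ := fun i => Ψ i.castSucc)
      (fun _ _ k => h (Fin.castSucc_le_castSucc_iff.2 k)) (fun _ _ k => h' (Fin.castSucc_le_castSucc_iff.2 k))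
      fun i => e _
    obtain ⟨k, k1, k2⟩ := exists_mv (U := (Φ (Fin.last m)).map g.toLinearMap) (U' := Ψ (Fin.last m))
      (W := ⨅ i : Fin m, Ψ i.castSucc) (le_iInf fun i => hg i ▸ Submodule.map_mono (h (Fin.le_last _)))
      (le_iInf fun i => h' (Fin.le_last _)) ((g.finrank_map_eq _).trans (e _))
    refine ⟨g ≪≫ₗ k, fun i => ?_⟩
    rw [LinearEquiv.coe_trans, Submodule.map_comp]
    rcases Fin.eq_castSucc_or_eq_last i with ⟨i, rfl⟩ | rfl
    · rw [hg i]
      refine Submodule.eq_of_le_of_finrank_eq ?_ (k.finrank_map_eq _)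
      rintro _ ⟨v, hv, rfl⟩
      exact (Submodule.sub_mem_iff_left _ hv).1 (iInf_le (fun i : Fin m => Ψ i.castSucc) i (k2 v))
    · exact k1

end flags

variable {n : ℕ} (a : Fin n → Fin n)

/-- the flag of a coset -/
def fl (g : GL (Fin n) F) (s : Fin n) : Submodule F (Fin n → F) :=
  (coordSub F fun i => s < a i).comap (vecMulLinear (g : Matrix (Fin n) (Fin n) F))

theorem mem_fl {g : GL (Fin n) F} {s : Fin n} {v : Fin n → F} :
    v ∈ fl a g s ↔ v ᵥ* (g : Matrix (Fin n) (Fin n) F) ∈ coordSub F fun i => s < a i := Iff.rfl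

theorem mem_block {g : GL (Fin n) F} : g ∈ blockGL F a ↔ ∀ s, ∀ v ∈ coordSub F fun i => s < a i,
    v ᵥ* (g : Matrix (Fin n) (Fin n) F) ∈ coordSub F fun i => s < a i := by
  refine ⟨fun h s v hv j hj => (sum_eq_zero fun i _ => ?_ : ∑ i, v i * (g : Matrix (Fin n) (Fin n) F) i j = 0),
    fun h i j hij => ?_⟩
  · by_cases hi : s < a i
    · exact mul_eq_zero_of_right _ (h ((not_lt.1 hj).trans_lt hi))
    · exact mul_eq_zero_of_left (hv i hi) _
  · simpa using h (a j) (Pi.single i 1) (fun k hk => Pi.single_eq_of_ne (fun e : k = i => hk (e ▸ hij)) _)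
      j (lt_irrefl _)

theorem le_fl {g g' x : GL (Fin n) F} : g⁻¹ * x * g' ∈ blockGL F a ↔
    ∀ s, ∀ v ∈ fl a g s, v ᵥ* (x : Matrix (Fin n) (Fin n) F) ∈ fl a g' s := by
  simp only [mem_block, mem_fl, vecMul_vecMul, ← Units.val_mul]
  refine forall_congr' fun s => ⟨fun h v hv => ?_, fun h v hv => ?_⟩
  · simpa only [vecMul_vecMul, ← Units.val_mul, mul_assoc, mul_inv_cancel_left] using h _ hv
  · simpa only [vecMul_vecMul, ← Units.val_mul, mul_assoc] using
      h (v ᵥ* (g⁻¹ : GL (Fin n) F)) (by rwa [vecMul_vecMul, Units.inv_mul, vecMul_one])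

theorem fl_eq {g g' : GL (Fin n) F} : fl a g = fl a g' ↔ g⁻¹ * g' ∈ blockGL F a := by
  have k : ∀ {g g' : GL (Fin n) F}, g⁻¹ * g' ∈ blockGL F a ↔ ∀ s, fl a g s ≤ fl a g' s := by
    intro g g'
    simpa [SetLike.le_def] using le_fl a (g := g) (g' := g') (x := 1)
  exact ⟨fun h => k.2 fun s => (congrFun h s).le, fun h => funext fun s =>
    (k.1 h s).antisymm (k.1 (by simpa using inv_mem h) s)⟩

theorem fl_anti (g : GL (Fin n) F) : Antitone (fl a g) := fun _ _ h _ hv i hi =>
  hv i fun e => hi (h.trans_lt e)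

theorem finrank_fl (g : GL (Fin n) F) (s : Fin n) :
    finrank F (fl a g s) = ∑ k with s < k, Fintype.card {i // a i = k} := by
  have := (Matrix.toLinearEquivRight'OfInv (M := ((g⁻¹ : GL (Fin n) F) : Matrix (Fin n) (Fin n) F))
    (M' := g) g.inv_mul g.mul_inv).symm.finrank_map_eq (coordSub F fun i => s < a i)
  rw [Submodule.map_equiv_eq_comap_symm] at this
  refine this.trans ?_
  simp only [finrank_coordSub, Fintype.card_subtype]
  rw [card_eq_sum_card_fiberwise (f := a) (t := filter (s < ·) univ) fun i hi => by simpa using hi]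
  exact sum_congr rfl fun k hk => congrArg card (by
    ext i; simp only [mem_filter, mem_univ, true_and] at hk ⊢; exact and_iff_right_of_imp fun e => e ▸ hk)

theorem exists_fl {Φ : Fin n → Submodule F (Fin n → F)} (h : Antitone Φ)
    (e : ∀ s, finrank F (Φ s) = ∑ k with s < k, Fintype.card {i // a i = k}) : ∃ g, fl a g = Φ := by
  obtain ⟨k, hk⟩ := exists_flag h (fl_anti a 1) fun s => (e s).trans (finrank_fl a 1 s).symm
  refine ⟨⟨k.toLinearMap.toMatrixRight', k.symm.toLinearMap.toMatrixRight', by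
    rw [← LinearMap.toMatrixRight'_comp]; simp, by rw [← LinearMap.toMatrixRight'_comp]; simp⟩,
    funext fun s => Submodule.ext fun v => ?_⟩
  have : v ᵥ* k.toLinearMap.toMatrixRight' = k v := by
    rw [← toLinearMapRight'_apply, LinearEquiv.symm_apply_apply]; rfl
  rw [mem_fl, this, ← vecMul_one (k v), ← Units.val_one, ← mem_fl, ← hk s, Submodule.mem_map_equiv,
    k.symm_apply_apply]

theorem card_fix [Finite F] (x : GL (Fin n) F) {μ : Fin n → ℕ} (hμ : ∑ i, μ i = n) :
    Nat.card (MulAction.fixedBy (GL (Fin n) F ⧸ Cfsg.parabolicGL n F μ) x) =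
      NF (L := Submodule F[X] (AEval' (vecMulLinear (x : Matrix (Fin n) (Fin n) F))))
        (fun U => finrank F U) μ ⊤ := by
  rw [parabolicGL_eq_blockGL μ hμ]
  have k : ∀ c : GL (Fin n) F ⧸ blockGL F (lab μ hμ), x • c = c ↔ ∀ s, fl (lab μ hμ) c.out s ∈
      (Algebra.lsmul F F (Fin n → F) (vecMulLinear (x : Matrix (Fin n) (Fin n) F))).invtSubmodule :=
    fun c => by
      conv_lhs => rw [← c.out_eq', MulAction.Quotient.smul_coe, eq_comm, QuotientGroup.eq, smul_eq_mul,
        ← mul_assoc, le_fl]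
      rfl
  refine Nat.card_eq_of_bijective (fun c => ⟨fun s => AEval.mapSubmodule F _ _ ⟨_, (k c.1).1 c.2 s⟩,
    fun s t h => (AEval.mapSubmodule F _ _).monotone (fl_anti _ _ h), fun s => ⟨le_top, ?_⟩⟩)
    ⟨fun c d e => Subtype.ext ?_, fun ⟨Φ, h1, h2⟩ => ?_⟩
  · refine (AEval.equiv_mapSubmodule _ _ _).finrank_eq.symm.trans ((finrank_fl _ _ _).trans ?_)
    simp only [card_lab_eq]
  · rw [← c.1.out_eq', ← d.1.out_eq', QuotientGroup.eq, ← fl_eq]
    exact funext fun s => congrArg Subtype.val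
      ((AEval.mapSubmodule F _ _).injective (congrFun (congrArg Subtype.val e) s))
  · obtain ⟨g, hg⟩ := exists_fl (lab μ hμ) (Φ := fun s => ((AEval.mapSubmodule F _ _).symm (Φ s)).1)
      (fun s t h => (AEval.mapSubmodule F _ _).symm.monotone (h1 h)) fun s => by
        rw [(AEval.equiv_mapSubmodule _ _ ((AEval.mapSubmodule F _ _).symm (Φ s)).2).finrank_eq,
          Subtype.coe_eta, OrderIso.apply_symm_apply]
        simp only [card_lab_eq]
        exact (h2 s).2
    have e : fl (lab μ hμ) (g : GL (Fin n) F ⧸ blockGL F (lab μ hμ)).out =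
        fun s => ((AEval.mapSubmodule F _ _).symm (Φ s)).1 :=
      ((fl_eq _).2 (QuotientGroup.eq.1 (QuotientGroup.out_eq' _))).trans hg
    exact ⟨⟨g, (k _).2 fun s => e ▸ Subtype.property _⟩, Subtype.ext (funext fun s =>
      (AEval.mapSubmodule F _ _).symm.injective (by
        rw [OrderIso.symm_apply_apply]; exact Subtype.ext (congrFun e s)))⟩

end H56.St
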