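import Cfsg.Agent.H60.WrRow
import Cfsg.Agent.H56.Root

/-! Tensor-induced subgroups `Sp_k(q) wr S_t` of `Ω⁺` for `q` even and `k ≤ 4` are not maximal:
they normalise a space of matrices whose anticommutators are scalar. -/

set_option autoImplicit false

namespace H56.WrEv
open Cfsg Cfsg.Geo Matrix H19 Module H60.Wr
open scoped MatrixGroups commutatorElement

variable {F : Type*} [Field F] {k t : ℕ} {B : Frm (Fin k) F} {G : Set (Mk k F)}
  {Q : QuadraticForm F (VV k t F)}

/-- A generating set with scalar anticommutators. -/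
structure CD (B : Frm (Fin k) F) (t : ℕ) (G : Set (Mk k F)) : Prop where
  ac : ∀ x ∈ G, ∀ y ∈ G, Sc (x * y + y * x)
  inv : ∀ g ∈ similarityGroup B.f, ∀ x ∈ G, ∃ c : F, ∃ y ∈ G, cj g x = c • y
  cen : ∀ X, (∀ b ∈ G, X * b = b * X) → Sc X
  ex : ∃ n ∈ G, n ≠ 0 ∧ n * n = 0 ∧ B.adj n = n ∧ (3 ≤ t ∨ ∀ a, B.f a (n *ᵥ a) = 0) ∧
    ∃ h ∈ B.Iso, ¬ Sc (n - cj h n)

/-- The span of the generators in all factors. -/
def SS (t : ℕ) (G : Set (Mk k F)) : Submodule F (EE k t F) :=
  Submodule.span F {X | X = 1 ∨ ∃ i, ∃ x ∈ G, X = em i x}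

/-- The normaliser of a space of matrices. -/
def NS {ι : Type} [Fintype ι] [DecidableEq ι] (S : Submodule F (Matrix ι ι F)) :
    Subgroup (GL ι F) where
  carrier := {g | ∀ Y, cj g Y ∈ S ↔ Y ∈ S}
  one_mem' Y := by simp
  mul_mem' {a b} ha hb Y := by rw [cj_mul, ha, hb]
  inv_mem' {a} ha Y := by rw [← ha, cj_cj_inv]

theorem mem_NS {ι : Type} [Fintype ι] [DecidableEq ι] {S : Submodule F (Matrix ι ι F)}
    {g : GL ι F} (h : ∀ Y ∈ S, cj g Y ∈ S) : g ∈ NS S := by
  have h1 : S.map (cj g).toLinearEquiv.toLinearMap = S :=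
    Submodule.eq_of_le_of_finrank_eq (by rintro _ ⟨Y, hY, rfl⟩; exact h Y hY)
      (LinearEquiv.finrank_map_eq _ _)
  intro Y
  refine ⟨fun hY => ?_, h Y⟩
  rw [← h1] at hY
  obtain ⟨Z, hZ, e⟩ := hY
  rwa [← (cj g).injective e]

theorem one_mem_SS : (1 : EE k t F) ∈ SS t G := Submodule.subset_span (Or.inl rfl)

theorem em_mem_SS (i : Fin t) {x : Mk k F} (hx : x ∈ G) : (em i x : EE k t F) ∈ SS t G :=
  Submodule.subset_span (Or.inr ⟨i, x, hx, rfl⟩)

theorem add_self {M : Type*} [AddCommGroup M] [Module F M] (h2 : (2 : F) = 0) (x : M) :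
    x + x = 0 := by rw [← two_smul F, h2, zero_smul]

theorem neg_self {M : Type*} [AddCommGroup M] [Module F M] (h2 : (2 : F) = 0) (x : M) :
    -x = x := neg_eq_of_add_eq_zero_left (add_self h2 x)

theorem CD.acS (H : CD B t G) (h2 : (2 : F) = 0) {X Y : EE k t F} (hX : X ∈ SS t G)
    (hY : Y ∈ SS t G) : Sc (X * Y + Y * X) := by
  induction hX using Submodule.span_induction with
  | zero => simpa using Sc.zero
  | add a b _ _ ha hb => convert ha.add hb using 1; noncomm_ring
  | smul c a _ ha => convert ha.smul c using 1; simp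
  | mem a ha =>
    rcases ha with rfl | ⟨i, x, hx, rfl⟩
    · rw [one_mul, mul_one, add_self h2]; exact Sc.zero
    induction hY using Submodule.span_induction with
    | zero => simpa using Sc.zero
    | add a b _ _ ha hb => convert ha.add hb using 1; noncomm_ring
    | smul c a _ ha => convert ha.smul c using 1; simp
    | mem a ha =>
      rcases ha with rfl | ⟨j, y, hy, rfl⟩
      · rw [one_mul, mul_one, add_self h2]; exact Sc.zero
      by_cases hij : i = j
      · subst hij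
        obtain ⟨c, hc⟩ := H.ac x hx y hy
        exact ⟨c, by rw [← map_mul, ← map_mul, ← map_add, hc, map_smul, map_one]⟩
      · rw [em_comm hij, add_self h2]; exact Sc.zero

theorem CD.un_mem (H : CD B t G) (h2 : (2 : F) = 0) {N : EE k t F} (hN : N ∈ SS t G)
    (h : N * N = 0) : un N h ∈ NS (SS t G) := mem_NS fun Y hY => by
  obtain ⟨c, hc⟩ := H.acS h2 hN hY
  have e : N * Y * N = c • N := by
    rw [← one_mul N, ← smul_mul_assoc, ← hc, one_mul, add_mul, mul_assoc Y, h]; simp
  rw [cj_of_val (un_val h) h, e, sub_eq_add_neg (N * Y), neg_self h2, hc]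
  exact add_mem hY (sub_mem (Submodule.smul_mem _ _ one_mem_SS) (Submodule.smul_mem _ _ hN))

theorem CD.T_le (H : CD B t G) {g : GG k t F} (hg : g ∈ TT k t F) (hi : g ∈ (B.pow t).Iso) :
    g ∈ NS (SS t G) := mem_NS fun Y hY => by
  obtain ⟨σ, hσ⟩ := exists_perm hg
  induction hY using Submodule.span_induction with
  | zero => simp
  | add a b _ _ ha hb => rw [map_add]; exact add_mem ha hb
  | smul c a _ ha => rw [map_smul]; exact Submodule.smul_mem _ _ ha
  | mem a ha =>
    rcases ha with rfl | ⟨i, x, hx, rfl⟩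
    · rw [map_one]; exact one_mem_SS
    obtain ⟨s, hs⟩ := (hσ i).exists_cj
    have h1 : s ∈ similarityGroup B.f := B.sim_of_adj_cj fun a => by
      rw [← em_inj (i := σ i), ← adj_em, ← hs, (B.pow t).adj_cj ((B.pow t).Iso_le_sim hi), adj_em,
        hs]
    obtain ⟨c, y, hy, e⟩ := H.inv s h1 x hx
    rw [hs, e, map_smul]
    exact Submodule.smul_mem _ _ (em_mem_SS _ hy)

theorem rk_add_le {ι : Type} [Fintype ι] [DecidableEq ι] (X Y : Matrix ι ι F) :
    (X + Y).rank ≤ X.rank + Y.rank := by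
  refine (Submodule.finrank_mono ?_).trans (Submodule.finrank_add_le_finrank_add_finrank
    (LinearMap.range X.mulVecLin) (LinearMap.range Y.mulVecLin))
  rintro _ ⟨v, rfl⟩
  rw [mulVecLin_apply, add_mulVec]
  exact Submodule.add_mem_sup ⟨v, rfl⟩ ⟨v, rfl⟩

theorem CD.sc_of (H : CD B t G) {X : EE k t F} (h : ∀ Y ∈ SS t G, X * Y = Y * X) : Sc X :=
  sc_of_inC fun i => InC.of_comm H.cen fun _ hb => (h _ (em_mem_SS i hb)).symm

theorem eq_zero_of_sc {X : EE k t F} (h : Sc X) (hr : X.rank < k ^ t) : X = 0 := by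
  obtain ⟨c, rfl⟩ := h
  by_contra h0
  have hc : c ≠ 0 := by rintro rfl; simp at h0
  rw [rank_of_isUnit _ (IsUnit.of_mul_eq_one (c⁻¹ • 1) (by simp [smul_smul, hc]))] at hr
  simp at hr

theorem CD.eq_zero (H : CD B t G) (h2 : (2 : F) = 0) {Y : EE k t F} (hY : Y ∈ SS t G)
    (hr : 2 * Y.rank < k ^ t) : Y = 0 := by
  refine eq_zero_of_sc (H.sc_of fun X hX => ?_) (by omega)
  have h1 := eq_zero_of_sc (H.acS h2 hY hX) (by
    have := rk_add_le (Y * X) (X * Y)
    have := rank_mul_le_left Y X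
    have := rank_mul_le_right X Y
    omega)
  rw [eq_neg_of_add_eq_zero_left h1, neg_self h2]

theorem CD.eq_one (H : CD B t G) (h2 : (2 : F) = 0) {g : GG k t F} (hg : g ∈ NS (SS t G))
    (hr : 4 * ((g : EE k t F) - 1).rank < k ^ t) : g = 1 := by
  refine Units.ext (sub_eq_zero.1 (eq_zero_of_sc ((H.sc_of fun Y hY => ?_).sub Sc.one)
    (show ((g : EE k t F) - 1).rank < _ by omega)))
  rw [← cj_eq_iff, ← sub_eq_zero]
  refine H.eq_zero h2 (sub_mem ((hg Y).2 hY) hY) ?_
  have e : cj g Y - Y = ((g : EE k t F) - 1) * (Y * (g⁻¹ : GG k t F)) +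
      (-Y) * (((g : EE k t F) - 1) * (g⁻¹ : GG k t F)) := by
    rw [cj_apply, sub_mul, sub_mul, Units.mul_inv]; noncomm_ring
  rw [e]
  generalize ((g⁻¹ : GG k t F) : EE k t F) = b
  generalize (g : EE k t F) - 1 = a at hr
  have := rk_add_le (a * (Y * b)) ((-Y) * (a * b))
  have := rank_mul_le_left a (Y * b)
  have := rank_mul_le_right (-Y) (a * b)
  have := rank_mul_le_left a b
  omega

theorem mem_isom (h : QF B Q) (alt : ∀ v, B.f v v = 0) (ht : 0 < t) {g : GG k t F}
    (hg : g ∈ (B.pow t).Iso) (hp : ∀ x, Q ((g : EE k t F) *ᵥ pv x) = 0) :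
    g ∈ isometryGroup F Q := by
  obtain ⟨c, -, e⟩ := h.pol
  have e1 : ∀ u v, QuadraticMap.polar Q ((g : EE k t F) *ᵥ u) ((g : EE k t F) *ᵥ v) =
      QuadraticMap.polar Q u v := fun u v => by rw [e, e, (B.pow t).mem_Iso.1 hg]
  refine mem_isometryGroup.2 fun v => ?_
  let L : Submodule F (VV k t F) :=
    { carrier := {v | Q ((g : EE k t F) *ᵥ v) = Q v}
      zero_mem' := by simp
      add_mem' := fun {a b} ha hb => by
        simp only [Set.mem_ofPred_eq] at *
        rw [mulVec_add, QuadraticMap.map_add Q, QuadraticMap.map_add Q, ha, hb, e1]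
      smul_mem' := fun r a ha => by
        simp only [Set.mem_ofPred_eq] at *
        rw [mulVec_smul, Q.map_smul, Q.map_smul, ha] }
  have : L = ⊤ := span_pv (S := fun _ => Set.univ) (fun _ => Submodule.span_univ) fun x _ => by
    change Q _ = Q _
    rw [hp, h.sing x ⟨0, ht⟩ (alt _)]
  exact (this.ge Submodule.mem_top : v ∈ L)

theorem exists_small (h : QF B Q) (alt : ∀ v, B.f v v = 0) (ht : 0 < t) (hn : 5 ≤ k ^ t) :
    ∃ g ∈ omegaGL ⇑Q, g ≠ 1 ∧ ((g : EE k t F) - 1).rank ≤ 2 := by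
  have hk := two_le_of_pow (k := k) (t := t) (by omega)
  let x : Fin k → F := Pi.single ⟨0, by omega⟩ 1
  have hx : x ≠ 0 := by simp [x]
  let u : VV k t F := pv fun _ => x
  have hu0 : u ≠ 0 := pv_ne_zero fun _ => hx
  have hu : Q u = 0 := h.sing _ ⟨0, ht⟩ (alt _)
  obtain ⟨v, hv, hv'⟩ : ∃ v, v ∈ LinearMap.ker (Q.polarBilin u) ∧ v ∉ F ∙ u :=
    SetLike.not_le_iff_exists.1 fun hle => by
      have h1 := Submodule.finrank_mono hle
      have h2 := (Q.polarBilin u).finrank_range_add_finrank_ker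
      have h3 := (LinearMap.range (Q.polarBilin u)).finrank_le
      rw [finrank_span_singleton hu0] at h1
      rw [finrank_V] at h2
      rw [finrank_self] at h3
      omega
  have huv : QuadraticMap.polar Q u v = 0 := hv
  refine ⟨H60.toGL Q (eich Q u v), (H60.omegaGL_eq (Q := Q)).ge ⟨_, eich_mem_commutator h.nondeg
    (not_isExc_of_finrank (by rw [finrank_V]; omega)) _ _, rfl⟩, fun h1 => hv' ?_, ?_⟩
  · obtain ⟨c, rfl⟩ := exists_smul_of_eich_eq_one h.nondeg hu0 hu huv (O.ext fun w => by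
      rw [← H60.toGL_mulVec, h1]; simp)
    exact Submodule.smul_mem _ _ (Submodule.mem_span_singleton_self u)
  · refine (Submodule.finrank_mono (t := Submodule.span F {u, v}) ?_).trans ?_
    · rintro _ ⟨w, rfl⟩
      rw [mulVecLin_apply, sub_mulVec, H60.toGL_mulVec, eich_apply hu huv, one_mulVec,
        Submodule.mem_span_pair]
      exact ⟨QuadraticMap.polar Q v w - Q v * QuadraticMap.polar Q u w,
        -QuadraticMap.polar Q u w, by module⟩
    · classical
      refine (finrank_span_le_card _).trans ?_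
      rw [Set.toFinset_insert, Set.toFinset_singleton]
      exact Finset.card_le_two

theorem CD.not_max (H : CD B t G) (h : QF B Q) (h2 : (2 : F) = 0) (alt : ∀ v, B.f v v = 0)
    (ht : 2 ≤ t) (hn : 9 ≤ k ^ t) :
    ∃ K, TT k t F ⊓ omegaGL ⇑Q < K ∧ K < omegaGL ⇑Q := by
  have hk := two_le_of_pow (k := k) (t := t) (by omega)
  refine ⟨NS (SS t G) ⊓ omegaGL ⇑Q, lt_of_le_of_ne (fun g hg =>
    ⟨H.T_le hg.1 (h.iso_le (omega_le _ hg.2)), hg.2⟩) fun e => ?_,
    lt_of_le_of_ne inf_le_right fun e => ?_⟩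
  swap
  · obtain ⟨g, h1, h3, h4⟩ := exists_small h alt (by omega) (by omega)
    exact h3 (H.eq_one h2 (e.ge h1).1 (by omega))
  obtain ⟨n, hn, n0, nn, na, hf, s, hs, hsc⟩ := H.ex
  let i : Fin t := ⟨0, by omega⟩
  let j : Fin t := ⟨1, by omega⟩
  have ij : i ≠ j := by simp [i, j]
  have e1 : ∀ l, (em l n * em l n : EE k t F) = 0 := fun l => by rw [← map_mul, nn, map_zero]
  have e2 : ∀ a b, (em i n * em j a * (em i n * em j b) : EE k t F) = 0 := fun a b => by
    rw [mul_assoc, ← mul_assoc (em j a), ← em_comm ij, mul_assoc, ← mul_assoc, e1, zero_mul]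
  have e3 : ((em i n + em j n) * (em i n + em j n) : EE k t F) = 0 := by
    rw [add_mul, mul_add, mul_add, e1, e1, ← em_comm ij, zero_add, add_zero, add_self h2]
  let g : GG k t F := un _ (e2 n n)
  have g1 : g ∈ NS (SS t G) := by
    have : g = un _ e3 * (un _ (e1 i) * un _ (e1 j)) := Units.ext (by
      have e4 : ((em i n + em j n) * (em i n * em j n) : EE k t F) = 0 := by
        rw [add_mul, ← mul_assoc, e1, em_comm ij, ← mul_assoc, e1]; simp
      have e5 := add_self h2 (em i n + em j n : EE k t F)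
      simp only [g, Units.val_mul, un_val]
      generalize (em i n : EE k t F) = a at *
      generalize (em j n : EE k t F) = b at *
      have : (1 + (a + b)) * ((1 + a) * (1 + b)) =
          1 + a * b + ((a + b) + (a + b)) + (a + b) * (a + b) + (a + b) * (a * b) := by
        noncomm_ring
      rw [this, e3, e4, e5]; simp)
    rw [this]
    exact mul_mem (H.un_mem h2 (add_mem (em_mem_SS i hn) (em_mem_SS j hn)) _)
      (mul_mem (H.un_mem h2 (em_mem_SS i hn) _) (H.un_mem h2 (em_mem_SS j hn) _))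
  have g2 : g ∈ isometryGroup F Q := by
    refine mem_isom h alt (by omega) (in_iso _ ?_) fun x => ?_
    · rw [Frm.adj_mul, adj_em, adj_em, na, em_comm ij, neg_self h2]
    · obtain ⟨c, -, e⟩ := h.pol
      rw [un_val, add_mulVec, one_mulVec, ← mulVec_mulVec, em_pv, em_pv, QuadraticMap.map_add Q,
        h.sing _ i (alt _), h.sing _ i (alt _), e, f_pv]
      obtain ⟨l, hl⟩ : ∃ l, B.f (x l) (Function.update (Function.update x j (n *ᵥ x j)) i
          (n *ᵥ Function.update x j (n *ᵥ x j) i) l) = 0 := by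
        rcases hf with h3 | hf
        · refine ⟨⟨2, by omega⟩, ?_⟩
          rw [Function.update_of_ne (by simp [i]), Function.update_of_ne (by simp [j]), alt]
        · exact ⟨j, by rw [Function.update_of_ne ij.symm, Function.update_self, hf]⟩
      rw [Finset.prod_eq_zero (Finset.mem_univ l) hl]; simp
  have s1 : emG j s ∈ TT k t F := InA.mem_T hk (InA.em j _)
  have s2 : emG j s ∈ isometryGroup F Q :=
    h.mem (Or.inr alt) (by omega) (emG_mem_Iso hs j) fun x => ⟨_, em_pv j _ x⟩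
  have s3 := H.T_le s1 (emG_mem_Iso hs j)
  have c1 : ⁅g, emG j s⁆ ∈ NS (SS t G) ⊓ omegaGL ⇑Q :=
    ⟨Subgroup.commutator_le_self _ (Subgroup.commutator_mem_commutator g1 s3),
      (omegaGL_comm _).ge (Subgroup.commutator_mem_commutator g2 s2)⟩
  refine hsc (sc_em.1 (sc_of_mem_T (i := i) n0 nn (InC.em ij (n - cj s n)) ⟨_, (e.ge c1).1, ?_⟩))
  have c2 : ⁅g, emG j s⁆ = g * (emG j s * g⁻¹ * (emG j s)⁻¹) := by
    rw [commutatorElement_def]; group
  rw [c2, Units.val_mul, ← cj_coe, un_inv, map_sub, map_one, map_mul, cj_emG_em,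
    (InC.em ij.symm n).cj_emG, un_val, map_sub, mul_sub, mul_sub, add_mul, add_mul, e2]
  noncomm_ring

end H56.WrEv
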