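import Cfsg.Agent.H56.WrEv1

/-! The generating sets for factors of dimension `2` and `4`. -/

set_option autoImplicit false

namespace H56.WrEv
open Cfsg Cfsg.Geo Matrix H19 Module H60.Wr
open scoped MatrixGroups

variable {F : Type*} [Field F] {k t : ℕ} {B : Frm (Fin k) F}

theorem f_eq (sig : ∀ a, B.σ a = a) (x y : Fin k → F) :
    B.f x y = ∑ i, ∑ j, x i * gramMatrix B.f i j * y j := by
  rw [B.eq_formOfGram, formOfGram]
  simp only [sig]

theorem gram_diag (alt : ∀ v, B.f v v = 0) (i : Fin k) : gramMatrix B.f i i = 0 := alt _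

theorem f_skew (sig : ∀ a, B.σ a = a) (eps : B.ε = -1) (x y : Fin k → F) :
    B.f y x = -B.f x y := by rw [B.symm, eps, sig]; ring

theorem gram_skew (sig : ∀ a, B.σ a = a) (eps : B.ε = -1) (i j : Fin k) :
    gramMatrix B.f j i = -gramMatrix B.f i j := f_skew sig eps _ _

theorem tv_mem (alt : ∀ v, B.f v v = 0) (eps : B.ε = -1) (w : Fin k → F) :
    ∃ h ∈ B.Iso, ∀ x, (h : Mk k F) *ᵥ x = x + B.f x w • w :=
  ⟨un (rf B w w) (by rw [rf_mul_rf, alt, zero_smul]), in_iso _ (by rw [adj_rf, eps]; simp),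
    fun x => by rw [un_val, add_mulVec, one_mulVec, rf_mulVec]⟩

theorem cd_two {B : Frm (Fin 2) F} (h2 : (2 : F) = 0) (sig : ∀ a, B.σ a = a)
    (alt : ∀ v, B.f v v = 0) (eps : B.ε = -1) (ht : 3 ≤ t) : CD B t {a | B.adj a = a} := by
  have r1 : ∀ u, B.adj (rf B u u) = rf B u u := fun u => by
    rw [adj_rf, eps, neg_one_smul, neg_self h2]
  refine ⟨fun x hx y hy => ⟨(x * y).trace, ?_⟩, fun g hg x hx => ⟨1, _, ?_, (one_smul _ _).symm⟩,
    fun X hX => sc_of_eigen fun v => ?_, ?_⟩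
  · have : y * x = B.adj (x * y) := by rw [B.adj_mul, hx, hy]
    rw [this, ← eq_sub_iff_add_eq']
    refine B.adj_eq_of fun u v => ?_
    generalize x * y = c
    simp only [f_eq sig, Fin.sum_univ_two, gram_diag alt, gram_skew sig eps 0 1, sub_mulVec,
      smul_mulVec, one_mulVec, Pi.sub_apply, Pi.smul_apply, smul_eq_mul, trace_fin_two]
    simp only [mulVec, dotProduct, Fin.sum_univ_two]
    ring
  · change B.adj _ = _
    rw [B.adj_cj hg, hx]
  · by_cases hv : v = 0
    · simp [hv]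
    obtain ⟨z, hz⟩ := exists_f_one (B := B) hv
    have := congrArg (· *ᵥ z) (hX _ (r1 v))
    simp only [← mulVec_mulVec, rf_mulVec, hz, one_smul] at this
    rw [this]
    exact Submodule.smul_mem _ _ (Submodule.mem_span_singleton_self v)
  · have hw : (Pi.single 0 1 : Fin 2 → F) ≠ 0 := by simp
    generalize (Pi.single 0 1 : Fin 2 → F) = w at hw
    obtain ⟨u, hu⟩ := exists_f_one (B := B) hw
    have u0 : u ≠ 0 := by rintro rfl; simp at hu
    obtain ⟨h, h1, h3⟩ := tv_mem alt eps w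
    refine ⟨_, r1 u, rf_ne_zero u0 u0, by rw [rf_mul_rf, alt, zero_smul], r1 u, Or.inl ht, h, h1, ?_⟩
    rintro ⟨c, hc⟩
    have := congrArg (fun X => B.f u (X *ᵥ u)) hc
    simp [cj_rf h1, h3, hu, sub_mulVec, rf_mulVec, alt, smul_mulVec, B.smul_right, B.add_right,
      B.neg_right] at this

theorem five {B : Frm (Fin 4) F} (sig : ∀ a, B.σ a = a) (alt : ∀ v, B.f v v = 0)
    (eps : B.ε = -1) (a b c d e : Fin 4 → F) :
    (B.f a b * B.f c d - B.f a c * B.f b d + B.f a d * B.f b c) • e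
    - (B.f a b * B.f c e - B.f a c * B.f b e + B.f a e * B.f b c) • d
    + (B.f a b * B.f d e - B.f a d * B.f b e + B.f a e * B.f b d) • c
    - (B.f a c * B.f d e - B.f a d * B.f c e + B.f a e * B.f c d) • b
    + (B.f b c * B.f d e - B.f b d * B.f c e + B.f b e * B.f c d) • a = 0 := by
  have hf : ∀ x y, B.f x y = gramMatrix B.f 0 1 * (x 0 * y 1 - x 1 * y 0) +
      gramMatrix B.f 0 2 * (x 0 * y 2 - x 2 * y 0) + gramMatrix B.f 0 3 * (x 0 * y 3 - x 3 * y 0) +
      gramMatrix B.f 1 2 * (x 1 * y 2 - x 2 * y 1) + gramMatrix B.f 1 3 * (x 1 * y 3 - x 3 * y 1) +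
      gramMatrix B.f 2 3 * (x 2 * y 3 - x 3 * y 2) := fun x y => by
    rw [f_eq sig]
    simp only [Fin.sum_univ_four, gram_diag alt, gram_skew sig eps 0 1, gram_skew sig eps 0 2,
      gram_skew sig eps 0 3, gram_skew sig eps 1 2, gram_skew sig eps 1 3, gram_skew sig eps 2 3]
    ring
  have hp : ∀ x y z w, B.f x y * B.f z w - B.f x z * B.f y w + B.f x w * B.f y z =
      (gramMatrix B.f 0 1 * gramMatrix B.f 2 3 - gramMatrix B.f 0 2 * gramMatrix B.f 1 3 +
        gramMatrix B.f 0 3 * gramMatrix B.f 1 2) *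
      ((x 0 * y 1 - x 1 * y 0) * (z 2 * w 3 - z 3 * w 2) -
        (x 0 * y 2 - x 2 * y 0) * (z 1 * w 3 - z 3 * w 1) +
        (x 0 * y 3 - x 3 * y 0) * (z 1 * w 2 - z 2 * w 1) +
        (x 1 * y 2 - x 2 * y 1) * (z 0 * w 3 - z 3 * w 0) -
        (x 1 * y 3 - x 3 * y 1) * (z 0 * w 2 - z 2 * w 0) +
        (x 2 * y 3 - x 3 * y 2) * (z 0 * w 1 - z 1 * w 0)) := fun x y z w => by
    simp only [hf]
    ring
  simp only [hp]
  ext i
  fin_cases i <;> simp <;> ring

theorem exists_perp (w : Fin 4 → F) {B : Frm (Fin 4) F} {J : Submodule F (Fin 4 → F)}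
    (hJ : finrank F J ≤ 2) : ∃ v, B.f v w = 0 ∧ v ∉ J :=
  SetLike.not_le_iff_exists.1 fun hle : (B.left w).ker ≤ J => by
    have h1 := Submodule.finrank_mono hle
    have h2 := (B.left w).finrank_range_add_finrank_ker
    have h3 := (LinearMap.range (B.left w)).finrank_le
    simp only [finrank_self, finrank_fintype_fun_eq_card, Fintype.card_fin] at h2 h3
    omega

theorem finrank_pair_le (u v : Fin k → F) : finrank F (Submodule.span F {u, v}) ≤ 2 := by
  classical
  refine (finrank_span_le_card _).trans ?_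
  rw [Set.toFinset_insert, Set.toFinset_singleton]
  exact Finset.card_le_two

theorem cd_four {B : Frm (Fin 4) F} (h2 : (2 : F) = 0) (sig : ∀ a, B.σ a = a)
    (alt : ∀ v, B.f v v = 0) (eps : B.ε = -1) :
    CD B t {a | ∃ u v, B.f u v = 0 ∧ a = rf B u v + rf B v u} := by
  have sy : ∀ x y, B.f y x = B.f x y := fun x y => by rw [f_skew sig eps, neg_self h2]
  refine ⟨?_, ?_, fun X hX => sc_of_eigen fun u => ?_, ?_⟩
  · rintro _ ⟨u, v, h, rfl⟩ _ ⟨u', v', h', rfl⟩
    refine ⟨B.f u u' * B.f v v' + B.f u v' * B.f v u', ext_mulVec fun z => ?_⟩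
    have h5 := five sig alt eps u v u' v' z
    simp only [add_mulVec, ← mulVec_mulVec, rf_mulVec, smul_mulVec, one_mulVec, B.add_left,
      B.smul_left, sy u u', sy u v', sy v u', sy v v', sy u z, sy v z, sy u' z, sy v' z, h, h',
      sub_eq_add_neg, neg_self h2] at h5 ⊢
    rw [← neg_self h2 (_ • z), eq_neg_iff_add_eq_zero, ← h5]
    module
  · rintro g hg _ ⟨u, v, h, rfl⟩
    obtain ⟨c, -, hc⟩ := B.exists_adj_of_sim (inv_mem hg)
    obtain ⟨d, hd⟩ := hg
    have e : ∀ x y, cj g (rf B x y) = c • rf B ((g : Mk 4 F) *ᵥ x) ((g : Mk 4 F) *ᵥ y) :=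
      fun x y => by
        rw [cj_apply, mul_ro, rf_mul, hc, inv_inv, smul_mulVec, rf_smul_right, sig]
    exact ⟨c, _, ⟨_, _, by rw [hd, h, mul_zero], rfl⟩, by rw [map_add, e, e, smul_add]⟩
  · obtain ⟨v, hv, hv'⟩ := exists_perp (B := B) u (finrank_pair_le u (X *ᵥ u))
    obtain ⟨z, h1, h3⟩ := exists_f_of_notMem (B := B) hv'
    have h4 := h3 u (Submodule.subset_span (by simp))
    have := congrArg (· *ᵥ z) (hX _ ⟨u, v, by rw [sy, hv], rfl⟩)
    simp only [← mulVec_mulVec, add_mulVec, rf_mulVec, sy v z, sy u z, h1, h4, one_smul, zero_smul,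
      add_zero] at this
    by_cases h5 : B.f (X *ᵥ z) u = 0
    · rw [this, h5, zero_smul, add_zero]
      exact Submodule.smul_mem _ _ (Submodule.mem_span_singleton_self u)
    · refine (hv' ((Submodule.smul_mem_iff _ h5).1 ?_)).elim
      rw [← sub_eq_iff_eq_add'.2 this]
      exact sub_mem (Submodule.subset_span (by simp))
        (Submodule.smul_mem _ _ (Submodule.subset_span (by simp)))
  · have hv : (Pi.single 0 1 : Fin 4 → F) ≠ 0 := by simp
    generalize (Pi.single 0 1 : Fin 4 → F) = v at hv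
    obtain ⟨u, hu, hu'⟩ := exists_perp (B := B) v (J := F ∙ v)
      (by rw [finrank_span_singleton hv]; omega)
    obtain ⟨w, h1, h3⟩ := exists_f_of_notMem (B := B) hu'
    have h4 := h3 v (Submodule.mem_span_singleton_self v)
    obtain ⟨h, h5, h6⟩ := tv_mem alt eps w
    refine ⟨_, ⟨u, v, hu, rfl⟩, fun h0 => hv ?_, ?_, ?_, Or.inr fun a => ?_, h, h5, ?_⟩
    · simpa [add_mulVec, rf_mulVec, sy u w, sy v w, h1, h4] using congrArg (· *ᵥ w) h0
    · simp [add_mul, mul_add, rf_mul_rf, alt, hu, sy u v]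
    · rw [B.adj_add, adj_rf, adj_rf, eps, neg_one_smul, neg_one_smul, neg_self h2, neg_self h2,
        add_comm]
    · rw [add_mulVec, rf_mulVec, rf_mulVec, B.add_right, B.smul_right, B.smul_right, sig, sig,
        mul_comm, add_self h2]
    · rintro ⟨c, hc⟩
      have e := congrArg (· *ᵥ u) hc
      simp [cj_rf h5, h6, h1, h4, sub_mulVec, add_mulVec, rf_mulVec, alt, hu, smul_mulVec,
        B.add_right] at e
      have e' := congrArg (B.f · w) e
      simp only [B.neg_left, B.smul_left, h1, h4] at e'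
      rw [show c = 0 by simpa using e'.symm] at e
      exact hv (by simpa using e)

theorem row [Fintype F] {ι : Type} [Fintype ι] [DecidableEq ι] (hn : 9 ≤ Fintype.card ι) {q : (ι → F) → F}
    (hQ : IsNondegenerateQuadraticForm q) (h2 : (2 : F) = 0) (ht : 2 ≤ t) (hk : k ≤ 4)
    (e : ι ≃ (Fin t → Fin k)) (P : GL ι F) {f₁ : (Fin k → F) → (Fin k → F) → F}
    (hf : IsSymplecticForm f₁) (hT : IsTensorPowerFormStructure id (QuadraticMap.polar q) f₁ e P)
    (hp : ∀ xs : Fin t → Fin k → F,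
      q ((P : Matrix ι ι F) *ᵥ ((fun a : Fin t → Fin k => ∏ i, xs i (a i)) ∘ e)) = 0) :
    ∃ K, tensorWreathSubgroup k t e P ⊓ omegaGL q < K ∧ K < omegaGL q := by
  obtain ⟨Q, rfl, -⟩ := H60.exists_quadraticForm hQ
  rw [card_eq e] at hn
  have h := qf_of (B := Frm.ofSymplectic hf) (fun _ => rfl) hT (Or.inr hp)
  obtain ⟨G, H⟩ : ∃ G, CD (Frm.ofSymplectic hf) t G := by
    rcases sp_dim (t := t) hf (by omega) with h4 | rfl
    · obtain rfl : k = 4 := by omega
      exact ⟨_, cd_four h2 (fun _ => rfl) hf.alternating rfl⟩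
    · refine ⟨_, cd_two h2 (fun _ => rfl) hf.alternating rfl ?_⟩
      by_contra h3
      rw [show t = 2 by omega] at hn
      omega
  obtain ⟨K, h1, h3⟩ := H.not_max h h2 hf.alternating ht hn
  have hi := (trGL e P).injective
  refine ⟨K.map (trGL e P).toMonoidHom, ?_, ?_⟩
  · rw [tr_omega (e := e) (P := P) Q, map_tr (G := tensorWreathSubgroup k t e P) (G₀ := TT k t F)
      (e := e) (P := P) fun g => by
        rw [tensorWreathSubgroup, mem_map_map_iff, MulEquiv.symm_apply_apply],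
      ← Subgroup.map_inf _ _ _ hi]
    exact (Subgroup.map_lt_map_iff_of_injective hi).2 h1
  · rw [tr_omega (e := e) (P := P) Q]
    exact (Subgroup.map_lt_map_iff_of_injective hi).2 h3

end H56.WrEv
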